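import Cfsg.Agent.Orth.Geom

/-! Simply laced root sets in dimension six: the setting. -/

set_option autoImplicit false
set_option linter.unusedSimpArgs false
set_option linter.unusedSectionVars false
set_option linter.unusedVariables false

namespace Cfsg.Agent.H9.E4

open Module Matrix Cfsg.Agent.Orth

variable {k W : Type*} [Field k] [AddCommGroup W] [Module k W] [FiniteDimensional k W]

/-- an irreducible simply laced root set in dimension six -/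
structure RS6 (Q : QuadraticForm k W) (R : W → Prop) : Prop where
  two : (2 : k) ≠ 0
  nd : Nd Q
  dim : finrank k W = 6
  bb : ∀ u, R u → B Q u u = 2
  fin : {u | R u}.Finite
  neg : ∀ u, R u → R (-u)
  refl : ∀ u v, R u → R v → R (B Q u v • u - v)
  f1 : ∀ u v, R u → R v → v ≠ u → v ≠ -u → B Q u v = 0 ∨ B Q u v = 1 ∨ B Q u v = -1
  tri : ∀ a b c, R a → R b → R c → B Q a b = -1 → B Q a c = -1 → B Q b c = -1 → a ≠ b → a ≠ c →
    b ≠ c → a + b + c = 0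
  irr : ∀ U : Submodule k W, (∀ u, R u → ∀ w ∈ U, B Q u w • u - w ∈ U) → U = ⊥ ∨ U = ⊤
  ex : ∃ u, R u

/-- the Cartan matrix of `E₆` -/
def C6 : Matrix (Fin 6) (Fin 6) ℤ :=
  !![2, -1, 0, 0, 0, 0; -1, 2, -1, 0, 0, 0; 0, -1, 2, -1, 0, -1; 0, 0, -1, 2, -1, 0;
    0, 0, 0, -1, 2, 0; 0, 0, -1, 0, 0, 2]

/-- type `A₆` -/
def TA (R : W → Prop) : Prop := (7 : k) ≠ 0 ∧ ∃ q : Fin 7 → W,
  (∀ i j, i ≠ j → R (q i - q j)) ∧ ∀ x, R x → ∃ i j, i ≠ j ∧ x = q i - q j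

/-- type `D₆` -/
def TD (Q : QuadraticForm k W) (R : W → Prop) : Prop := ∃ e : Fin 6 → W,
  (∀ i j, B Q (e i) (e j) = if i = j then 1 else 0) ∧
  (∀ i j, i ≠ j → R (e i - e j) ∧ R (e i + e j)) ∧
  ∀ x, R x → ∃ i j, i ≠ j ∧ ∃ s t : k, s * s = 1 ∧ t * t = 1 ∧ x = s • e i + t • e j

/-- type `E₆` -/
def TE (Q : QuadraticForm k W) (R : W → Prop) : Prop := (3 : k) ≠ 0 ∧ ∃ a : Fin 6 → W,
  (∀ i, R (a i)) ∧ (∀ i j, B Q (a i) (a j) = (C6 i j : k)) ∧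
  ∀ x, R x → ∃ n : Fin 6 → ℤ, n ⬝ᵥ C6 *ᵥ n = 2 ∧ x = ∑ i, (n i : k) • a i

/-- a simple group related to a central quotient -/
theorem iso_of_rel {A B C G : Type*} [Group A] [Group B] [Group C] [Group G] [IsSimpleGroup G]
    [Nontrivial C] (π : A →* G) (hπ : Function.Surjective π) (ψ : B →* C)
    (hψ : Function.Surjective ψ) (D : Subgroup (A × B)) (h1 : ∀ a, ∃ b, (a, b) ∈ D)
    (h2 : ∀ b, ∃ a, (a, b) ∈ D) (h3 : ∀ a b, (a, b) ∈ D → π a = 1 → ψ b = 1) :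
    Nonempty (G ≃* C) := by
  let f : D →* G := π.comp ((MonoidHom.fst A B).comp D.subtype)
  let g : D →* C := ψ.comp ((MonoidHom.snd A B).comp D.subtype)
  have hf : Function.Surjective f := fun x => by
    obtain ⟨a, rfl⟩ := hπ x
    obtain ⟨b, hb⟩ := h1 a
    exact ⟨⟨_, hb⟩, rfl⟩
  let φ := f.liftOfSurjective hf ⟨g, fun x hx => h3 _ _ x.2 hx⟩
  have hφ : Function.Surjective φ := fun y => by
    obtain ⟨b, rfl⟩ := hψ y
    obtain ⟨a, ha⟩ := h2 b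
    exact ⟨f ⟨_, ha⟩, MonoidHom.liftOfRightInverse_comp_apply ..⟩
  refine ⟨MulEquiv.ofBijective φ ⟨(MonoidHom.ker_eq_bot_iff φ).1
    ((IsSimpleGroup.eq_bot_or_eq_top_of_normal _ inferInstance).resolve_right fun e => ?_), hφ⟩⟩
  obtain ⟨y, hy⟩ := exists_ne (1 : C)
  obtain ⟨x, rfl⟩ := hφ y
  exact hy (e ▸ Subgroup.mem_top x : x ∈ φ.ker)

end Cfsg.Agent.H9.E4
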