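import Cfsg.Agent.H9.E4.S2
import Cfsg.Agent.H9.E4.R0

/-! Root systems acted on by a subgroup of `SL_4`: the interface. -/

set_option autoImplicit false
set_option linter.unusedSimpArgs false
set_option linter.unusedSectionVars false
set_option linter.unusedVariables false

namespace Cfsg.Agent.H9.E4

open Module Cfsg.Agent.Orth Cfsg.Agent.H6.L4
open Cfsg.Agent.H6.S4 (nc T NoTv wa)

universe u

variable {k V W S : Type*} [Field k] [AddCommGroup V] [Module k V] [FiniteDimensional k V]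
  [AddCommGroup W] [Module k W] [FiniteDimensional k W]
  [AddCommGroup S] [Module k S] [FiniteDimensional k S]

/-- an invariant root system whose rotations lie in `P` -/
structure Rt (P : Subgroup (End k V)ˣ) {G : Type u} [Group G] (π : P →* G)
    (Q : QuadraticForm k W) (ι : W →ₗ[k] End k S) (ρ : (End k V)ˣ →* (End k S)ˣ)
    (j : End k V →ₗ[k] End k S) (pr : End k S →ₗ[k] End k V) (Φ : W → Prop) : Prop
    extends St P π where
  sp : Sp Q ι ρ j pr
  rs : RS6 Q Φ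
  pair : ∀ u v, Φ u → Φ v → ∃ g ∈ P, (ρ g).1 = ι u * ι v
  inv : ∀ g ∈ P, ∀ u, Φ u → Φ (wa ι (ρ g) u)

/-- the trace condition on the perfect core -/
def TT0 (p : ℕ) (P : Subgroup (End k V)ˣ) : Prop := ∀ g ∈ ⁅P, P⁆, ts g ^ p = ts g

/-- conclusions -/
def CA0 (p : ℕ) (P : Subgroup (End k V)ˣ) (G : Type u) [Group G] : Prop :=
  Nonempty (G ≃* alternatingGroup (Fin 7)) ∧ p ≠ 7 ∧ TT0 p P

def CB0 (p : ℕ) (P : Subgroup (End k V)ˣ) (G : Type u) [Group G] : Prop :=
  (∃ (K : Type) (_ : Field K) (_ : Fintype K), Fintype.card K = 4 ∧ Nonempty (G ≃* Cfsg.PSU 4 K 2)) ∧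
    p ≠ 3 ∧ TT0 p P ∧ ∃ g ∈ ⁅P, P⁆, ts g = -1 ∧ tp g = 7

end Cfsg.Agent.H9.E4
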