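import Cfsg.Agent.H6.L4.If
import Cfsg.Agent.H9.O6.Kl3

/-! The spin module of `SL_4 = Spin_6`. -/

set_option autoImplicit false
set_option linter.unusedSimpArgs false
set_option linter.unusedSectionVars false
set_option linter.unusedVariables false

namespace Cfsg.Agent.H9.E4

open Module Matrix Cfsg.Agent.Orth Cfsg.Agent.H6.L4
open Cfsg.Agent.H6.S4 (nc T NoTv sq_of_T)
open Cfsg.Agent.H9.O6 (alt QL AL Kl kl_SL Rel alt_T alt_inj anti_of_sq)

variable {k V W S : Type*} [Field k] [AddCommGroup V] [Module k V] [FiniteDimensional k V]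
  [AddCommGroup W] [Module k W] [FiniteDimensional k W]
  [AddCommGroup S] [Module k S] [FiniteDimensional k S]

/-- spin data -/
structure Sp (Q : QuadraticForm k W) (ι : W →ₗ[k] End k S) (ρ : (End k V)ˣ →* (End k S)ˣ)
    (j : End k V →ₗ[k] End k S) (pr : End k S →ₗ[k] End k V) : Prop where
  two : (2 : k) ≠ 0
  nd : Nd Q
  dim : finrank k W = 6
  dimS : finrank k S = 8
  sq : ∀ x, ι x * ι x = Q x • 1
  act : ∀ g : (End k V)ˣ, LinearMap.det g.1 = 1 → ∀ x, ∃ y, (ρ g).1 * ι x = ι y * (ρ g).1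
  jT : ∀ g, j (T g) = T (ρ g)
  jsq : ∀ X, j (X * X) = j X * j X
  j1 : j 1 = 1
  prj : ∀ X, pr (j X) = X
  prm : ∀ g Y, pr ((ρ g).1 * Y) = g.1 * pr Y
  prm' : ∀ g Y, pr (Y * (ρ g).1) = pr Y * g.1
  prm2 : ∀ a b Y, pr (ι a * (ι b * Y)) = pr (ι a * ι b) * pr Y
  tr : ∀ g, LinearMap.trace k S (ρ g).1 = ts g
  trV : ∀ a b, LinearMap.trace k V (pr (ι a * ι b)) = 2 * B Q a b
  sca : ∀ (g : (End k V)ˣ) (c : k), g.1 = c • 1 → c ^ 4 = 1 → ∀ x, (ρ g).1 * ι x = c ^ 2 • (ι x * (ρ g).1)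
  neg : (ρ (-1)).1 = -1
  quad : ∀ (g : (End k V)ˣ) (ω : k), ω ^ 2 + ω + 1 = 0 → LinearMap.det g.1 = 1 → T g = (-1 : k) • 1 →
    (¬ ∃ v : V, ∀ x, ∃ c : k, g.1 x - x = c • v) → ∃ a b, Q a = 1 ∧ Q b = 1 ∧ (ρ g).1 = ι a * ι b
  form : ∃ β : End k S →ₗ[k] V →ₗ[k] V →ₗ[k] k, (∀ X, β X = 0 → ∀ a, pr (ι a * X) = 0) ∧
    ∀ g X u v, β ((ρ g)⁻¹.1 * X * (ρ g).1) u v = β X (g.1 u) (g.1 v)
  ker : ∀ P : Subgroup (End k V)ˣ,
    (∀ U : Submodule k V, (∀ g ∈ P, ∀ v ∈ U, g.1 v ∈ U) → U = ⊥ ∨ U = ⊤) → ∀ R : Submodule k W,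
    (∀ g ∈ P, ∀ x ∈ R, ∃ y ∈ R, (ρ g).1 * ι x = ι y * (ρ g).1) → ∀ s, (∀ x ∈ R, ι x s = 0) →
    R = ⊥ ∨ s = 0

abbrev M4 (k : Type*) := Matrix (Fin 4) (Fin 4) k

abbrev W6 (k : Type*) := (Fin 3 → k) × (Fin 3 → k)

abbrev S8 (k : Type*) := Fin 4 ⊕ Fin 4 → k

theorem alt_surj (h2 : (2 : k) ≠ 0) {X : M4 k} (h : Xᵀ = -X) : ∃ x, alt k x = X := by
  have e : ∀ i j, X j i = -X i j := fun i j => congrFun (congrFun h i) j
  have d : ∀ i, X i i = 0 := fun i => mul_left_cancel₀ h2 (by linear_combination e i i)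
  refine ⟨(![X 0 1, X 0 2, X 0 3], ![X 2 3, X 3 1, X 1 2]), ?_⟩
  ext i j; fin_cases i <;> fin_cases j <;> simp [alt, d] <;> exact (e _ _).symm

theorem det_rk1 (c : k) (v φ : Fin 4 → k) :
    (c • (1 : M4 k) + vecMulVec v φ).det = c ^ 3 * (c + φ ⬝ᵥ v) := by
  simp [det_succ_row_zero, Fin.sum_univ_succ, vecMulVec_apply, one_apply, Fin.succAbove, dotProduct]
  ring

theorem rk2 {g : M4 k} {ω : k} (hω : ω ^ 2 + ω + 1 = 0) (hd : g.det = 1) (hg : g * g = -g - 1)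
    (tv : ¬ ∃ v, ∀ x, ∃ c : k, g *ᵥ x - x = c • v) : ∃ x y : Fin 4 → k, ∀ a b : k,
      a • (g *ᵥ x - ω • x) + b • (g *ᵥ y - ω • y) = 0 → a = 0 ∧ b = 0 := by
  by_contra! H
  have w3 : ω ^ 3 = 1 := by linear_combination (ω - 1) * hω
  obtain ⟨v, hv⟩ : ∃ v, ∀ x, ∃ c : k, g *ᵥ x - ω • x = c • v := by
    by_contra! K
    obtain ⟨x, hx⟩ := K 0
    obtain ⟨y, hy⟩ := K (g *ᵥ x - ω • x)
    obtain ⟨a, b, e, n⟩ := H x y
    by_cases b0 : b = 0
    · exact hx 0 (by simpa [b0, show a ≠ 0 from fun a0 => n a0 b0] using e)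
    · exact hy (-(b⁻¹ * a)) (smul_right_injective _ b0 (by
        simp only [smul_smul, mul_neg, mul_inv_cancel_left₀ b0]
        linear_combination (norm := module) e))
  choose φ hφ using fun i => hv (Pi.single i 1)
  have e : g = ω • 1 + vecMulVec v φ := by
    ext i j
    have := congrFun (hφ j) i
    simp [Pi.single_apply] at this
    simp [vecMulVec_apply, one_apply]
    split_ifs at this ⊢ <;> linear_combination this
  have e1 : ω + φ ⬝ᵥ v = 1 := by rw [e, det_rk1, w3, one_mul] at hd; exact hd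
  have e2 : g *ᵥ v = v := by
    rw [e, add_mulVec, smul_mulVec, one_mulVec, vecMulVec_mulVec, op_smul_eq_smul, ← add_smul, e1, one_smul]
  have e3 : ω = 1 := by
    by_cases v0 : v = 0
    · simpa [v0] using e1
    have := congrArg (· *ᵥ v) hg
    simp only [← mulVec_mulVec, e2, sub_mulVec, neg_mulVec, one_mulVec] at this
    have t3 : (3 : k) = 0 := (smul_eq_zero.1 (show (3 : k) • v = 0 by
      linear_combination (norm := module) this)).resolve_right v0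
    exact sub_eq_zero.1 (pow_eq_zero_iff two_ne_zero |>.1 (by linear_combination hω - ω * t3))
  exact tv ⟨v, by simpa [e3] using hv⟩

theorem free2 {g : M4 k} {ω : k} (hω : ω ^ 2 + ω + 1 = 0) (hd : g.det = 1) (hg : g * g = -g - 1)
    (tv : ¬ ∃ v, ∀ x, ∃ c : k, g *ᵥ x - x = c • v) : ∃ C : M4 k, C.det ≠ 0 ∧
      g * C = C * !![0, -1, 0, 0; 1, -1, 0, 0; 0, 0, 0, -1; 0, 0, 1, -1] := by
  have gg : ∀ x, g *ᵥ g *ᵥ x = -(g *ᵥ x) - x := fun x => by
    rw [mulVec_mulVec, hg, sub_mulVec, neg_mulVec, one_mulVec]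
  have hω' : (-1 - ω) ^ 2 + (-1 - ω) + 1 = 0 := by linear_combination hω
  obtain ⟨x, y, H⟩ : ∃ x y : Fin 4 → k, (∀ a b : k,
      a • (g *ᵥ x - ω • x) + b • (g *ᵥ y - ω • y) = 0 → a = 0 ∧ b = 0) ∧ ∀ a b : k,
      a • (g *ᵥ x - (-1 - ω) • x) + b • (g *ᵥ y - (-1 - ω) • y) = 0 → a = 0 ∧ b = 0 := by
    obtain ⟨x, y, H⟩ := rk2 hω hd hg tv
    by_cases e : -1 - ω = ω
    · exact ⟨x, y, H, e.symm ▸ H⟩
    obtain ⟨x', y', H'⟩ := rk2 hω' hd hg tv
    have n := sub_ne_zero.2 e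
    refine ⟨g *ᵥ x - ω • x + (g *ᵥ x' - (-1 - ω) • x'), g *ᵥ y - ω • y + (g *ᵥ y' - (-1 - ω) • y'),
      fun a b h => ?_, fun a b h => ?_⟩ <;>
      simp only [mulVec_add, mulVec_sub, mulVec_smul, gg] at h
    · have := H (a * (-1 - ω - ω)) (b * (-1 - ω - ω)) (by
        linear_combination (norm := module) h + hω • (a • (x + x') + b • (y + y')))
      simpa [n] using this
    · have := H' (a * (-1 - ω - ω)) (b * (-1 - ω - ω)) (by
        linear_combination (norm := module) -h - hω • (a • (x + x') + b • (y + y')))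
      simpa [n] using this
  let C : M4 k := of fun i j => ![x, g *ᵥ x, y, g *ᵥ y] j i
  have hC : ∀ s, C *ᵥ s = s 0 • x + s 1 • g *ᵥ x + s 2 • y + s 3 • g *ᵥ y := fun s => by
    ext i; simp [C, mulVec, dotProduct, Fin.sum_univ_four, mul_comm]
  refine ⟨C, fun e => ?_, ext_of_mulVec_single fun i => ?_⟩
  · obtain ⟨s, s0, hs⟩ := exists_mulVec_eq_zero_iff.2 e
    have h1 := congrArg (g *ᵥ ·) hs
    simp only [hC, mulVec_add, mulVec_smul, gg, mulVec_zero] at hs h1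
    obtain ⟨a1, a2⟩ := H.1 (s 0 + s 1 * (-1 - ω)) (s 2 + s 3 * (-1 - ω)) (by
      linear_combination (norm := module) h1 - ω • hs + hω • (s 1 • x + s 3 • y))
    obtain ⟨a3, a4⟩ := H.2 (s 1) (s 3) (by
      linear_combination (norm := module) hs - a1 • x - a2 • y)
    rw [a3, zero_mul, add_zero] at a1
    rw [a4, zero_mul, add_zero] at a2
    exact s0 (funext fun i => by fin_cases i; exacts [a1, a3, a2, a4])
  · rw [← mulVec_mulVec, ← mulVec_mulVec, hC, hC]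
    clear_value C
    simp only [mulVec_add, mulVec_smul, gg]
    fin_cases i <;> simp [sub_eq_add_neg, add_comm]

end Cfsg.Agent.H9.E4
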