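import Cfsg.Agent.H9.E4.S0

/-! The spin module of `SL_4 = Spin_6`: construction. -/

set_option autoImplicit false
set_option linter.unusedSimpArgs false
set_option linter.unusedSectionVars false
set_option linter.unusedVariables false

namespace Cfsg.Agent.H9.E4

open Module Matrix Cfsg.Agent.Orth Cfsg.Agent.H6.L4
open Cfsg.Agent.H6.S4 (nc T NoTv sq_of_T)
open Cfsg.Agent.H9.O6 (alt QL AL Kl kl_SL Rel alt_T alt_inj anti_of_sq)

variable {k V : Type*} [Field k] [AddCommGroup V] [Module k V] [FiniteDimensional k V]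
  (M : End k V ≃ₐ[k] M4 k)

/-- block matrices as endomorphisms -/
noncomputable def Bl (a b c d : M4 k) : End k (S8 k) := toLinAlgEquiv' (fromBlocks a b c d)

theorem Bl_mul (a b c d a' b' c' d' : M4 k) : Bl a b c d * Bl a' b' c' d' =
    Bl (a * a' + b * c') (a * b' + b * d') (c * a' + d * c') (c * b' + d * d') := by
  rw [Bl, Bl, Bl, ← map_mul, fromBlocks_multiply]

theorem Bl_add (a b c d a' b' c' d' : M4 k) : Bl a b c d + Bl a' b' c' d' =
    Bl (a + a') (b + b') (c + c') (d + d') := by rw [Bl, Bl, Bl, ← map_add, fromBlocks_add]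

theorem Bl_smul (t : k) (a b c d : M4 k) : t • Bl a b c d = Bl (t • a) (t • b) (t • c) (t • d) := by
  rw [Bl, Bl, ← map_smul, fromBlocks_smul]

theorem Bl_one : Bl (1 : M4 k) 0 0 1 = 1 := by rw [Bl, fromBlocks_one, map_one]

theorem Bl_surj (X : End k (S8 k)) : ∃ a b c d, X = Bl a b c d :=
  ⟨_, _, _, _, by rw [Bl, fromBlocks_toBlocks (toLinAlgEquiv'.symm X), AlgEquiv.apply_symm_apply]⟩

theorem Bl_inj {a b c d a' b' c' d' : M4 k} :
    Bl a b c d = Bl a' b' c' d' ↔ a = a' ∧ b = b' ∧ c = c' ∧ d = d' := by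
  rw [Bl, Bl, EmbeddingLike.apply_eq_iff_eq, fromBlocks_inj]

theorem Bl_app (a b c d : M4 k) (v w : Fin 4 → k) :
    Bl a b c d (Sum.elim v w) = Sum.elim (a *ᵥ v + b *ᵥ w) (c *ᵥ v + d *ᵥ w) := by
  rw [Bl, toLinAlgEquiv'_apply, fromBlocks_mulVec]; rfl

/-- the first family of alternating matrices -/
abbrev A1 (k : Type*) [Field k] : W6 k →ₗ[k] M4 k := AL (.fst k _ _) (.snd k _ _)

/-- the second family of alternating matrices -/
abbrev A2 (k : Type*) [Field k] : W6 k →ₗ[k] M4 k := AL (.snd k _ _) (.fst k _ _)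

/-- Clifford map -/
noncomputable def ι0 (k : Type*) [Field k] : W6 k →ₗ[k] End k (S8 k) where
  toFun x := Bl 0 (A1 k x) (A2 k x) 0
  map_add' x y := by simp [Bl_add]
  map_smul' c x := by simp [Bl_smul]

/-- Jordan map -/
noncomputable def j0 : End k V →ₗ[k] End k (S8 k) where
  toFun X := Bl (M X) 0 0 (M X)ᵀ
  map_add' x y := by simp [Bl_add]
  map_smul' c x := by simp [Bl_smul]

/-- a block -/
noncomputable def bl (f : Fin 4 → Fin 4 ⊕ Fin 4) : End k (S8 k) →ₗ[k] M4 k where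
  toFun X := (toLinAlgEquiv'.symm X).submatrix f Sum.inl
  map_add' x y := by simp [submatrix_add]
  map_smul' c x := by simp [submatrix_smul]

theorem bl_inl (a b c d : M4 k) : bl Sum.inl (Bl a b c d) = a := by
  ext i j; simp [bl, Bl]

theorem bl_inr (a b c d : M4 k) : bl Sum.inr (Bl a b c d) = c := by
  ext i j; simp [bl, Bl]

theorem MM (g : (End k V)ˣ) : M g.1 * M g⁻¹.1 = 1 := by rw [← map_mul, Units.mul_inv, map_one]

theorem MM' (g : (End k V)ˣ) : M g⁻¹.1 * M g.1 = 1 := by rw [← map_mul, Units.inv_mul, map_one]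

/-- spin representation -/
noncomputable def ρ0 : (End k V)ˣ →* (End k (S8 k))ˣ where
  toFun g := ⟨Bl (M g.1) 0 0 (M g⁻¹.1)ᵀ, Bl (M g⁻¹.1) 0 0 (M g.1)ᵀ,
    by simp [Bl_mul, ← transpose_mul, MM, Bl_one], by simp [Bl_mul, ← transpose_mul, MM', Bl_one]⟩
  map_one' := Units.ext (by simp [Bl_one])
  map_mul' g h := Units.ext (by simp [Bl_mul])

theorem ρ0_val (g : (End k V)ˣ) : (ρ0 M g).1 = Bl (M g.1) 0 0 (M g⁻¹.1)ᵀ := rfl

theorem ρ0_inv (g : (End k V)ˣ) : (ρ0 M g)⁻¹.1 = Bl (M g⁻¹.1) 0 0 (M g.1)ᵀ := rfl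

theorem ι0_val (x : W6 k) : ι0 k x = Bl 0 (A1 k x) (A2 k x) 0 := rfl

theorem j0_val (X : End k V) : j0 M X = Bl (M X) 0 0 (M X)ᵀ := rfl

theorem rel0 (g : (End k V)ˣ) (hg : (M g.1).det = 1) : ∃ f : W6 k ≃ₗ[k] W6 k, (∀ x, QL k (f x) = QL k x) ∧
    ∀ x, M g.1 * A1 k x * (M g.1)ᵀ = A1 k (f x) ∧ (M g.1)ᵀ * A2 k (f x) * M g.1 = A2 k x := by
  obtain ⟨f, -, r⟩ := (kl_SL k).exists_rel (g := ⟨M g.1, M g⁻¹.1, MM M g, MM' M g⟩) (Units.ext hg)
  exact ⟨f, (kl_SL k).rel_O r, r⟩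

theorem tr_Bl (a d : M4 k) : LinearMap.trace k _ (Bl a 0 0 d) = a.trace + d.trace := by
  rw [Bl]
  erw [trace_toLin'_eq]
  simp [trace]

theorem skC (C : M4 k) {X : M4 k} (h : Xᵀ = -X) : (C * X * Cᵀ)ᵀ = -(C * X * Cᵀ) := by
  simp [h, mul_assoc]

theorem quad0 (h2 : (2 : k) ≠ 0) [IsAlgClosed k] (g : (End k V)ˣ) {ω : k} (hω : ω ^ 2 + ω + 1 = 0)
    (hd : (M g.1).det = 1) (hg : M g.1 * M g.1 = -M g.1 - 1)
    (tv : ¬ ∃ v, ∀ x, ∃ c : k, M g.1 *ᵥ x - x = c • v) :
    ∃ a b, QL k a = 1 ∧ QL k b = 1 ∧ (ρ0 M g).1 = ι0 k a * ι0 k b := by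
  have K := kl_SL k
  obtain ⟨C, hC, e⟩ := free2 hω hd hg tv
  obtain ⟨f, f1, f2⟩ := rel0 M g hd
  obtain ⟨b, hb⟩ := alt_surj h2 (skC C (X := !![0, 0, 1, 1; 0, 0, 1, 0; -1, -1, 0, 0; -1, 0, 0, 0])
    (by ext i j; fin_cases i <;> fin_cases j <;> simp))
  obtain ⟨a, ha⟩ := alt_surj h2 (X := M g.1 * alt k b) (by
    rw [hb, ← mul_assoc, ← mul_assoc, e, mul_assoc C]
    exact skC C (by ext i j; fin_cases i <;> fin_cases j <;> simp [mul_apply, Fin.sum_univ_four]))
  replace ha : A1 k a = M g.1 * A1 k b := ha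
  have qb : QL k b ≠ 0 := fun q => by
    have e1 := K.sq b
    rw [q, zero_smul] at e1
    have u : IsUnit (A1 k b) := (isUnit_iff_isUnit_det _).2 (by
      change IsUnit (alt k b).det
      rw [hb, det_mul, det_mul, det_transpose]
      generalize C.det = d at hC
      simp [hC, det_succ_row_zero, Fin.sum_univ_succ, Fin.succAbove])
    have := K.inj' ((u.mul_right_eq_zero.1 e1).trans (map_zero _).symm)
    rw [this, map_zero] at u
    exact not_isUnit_zero u
  have e1 : A1 k b * (M g.1)ᵀ = A1 k a := by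
    have := K.skew a
    rw [ha, transpose_mul, K.skew, neg_mul, neg_inj] at this
    rw [this, ha]
  have qa : QL k a = QL k b := by
    rw [← f1 a]; congr 1; apply K.inj
    rw [← (f2 a).1, ha, mul_assoc, mul_assoc, e1, ha, ← mul_assoc, ← mul_assoc, hg, sub_mul, neg_mul, hg]
    simp
  obtain ⟨c, hc⟩ := IsAlgClosed.exists_eq_mul_self (QL k b)⁻¹
  have q1 : c * c * QL k b = 1 := by rw [← hc, inv_mul_cancel₀ qb]
  have e2 : M g.1 = A1 k (c • a) * A2 k (c • b) := by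
    rw [map_smul, map_smul, smul_mul_smul_comm, ha, mul_assoc, K.sq, mul_smul_comm, smul_smul, q1, mul_one,
      one_smul]
  have q2 : QL k (c • a) = 1 := by rw [Q_smul, qa, q1]
  have q3 : QL k (c • b) = 1 := by rw [Q_smul, q1]
  refine ⟨_, _, q2, q3, ?_⟩
  generalize c • a = a at *
  generalize c • b = b at *
  have e3 : M g⁻¹.1 = A1 k b * A2 k a := by
    rw [← mul_one (M g⁻¹.1), ← one_smul k (1 : M4 k), ← q2, ← K.sq, ← mul_one (A1 k a), ← one_smul k (1 : M4 k),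
      ← q3, ← K.sq', ← mul_assoc (A1 k a), ← e2, mul_assoc, ← mul_assoc, MM', one_mul]
  simp [ρ0_val, ι0_val, Bl_mul, e2, e3, K.skew, K.skew']

theorem exists_sp (h2 : (2 : k) ≠ 0) [IsAlgClosed k] (hd : finrank k V = 4) :
    ∃ (ρ : (End k V)ˣ →* (End k (S8 k))ˣ) (j : End k V →ₗ[k] _) (pr : _ →ₗ[k] End k V),
      Sp (QL k) (ι0 k) ρ j pr := by
  have K := kl_SL k
  obtain ⟨M, e, he, hdet, htr⟩ : ∃ (M : End k V ≃ₐ[k] M4 k) (e : V ≃ₗ[k] (Fin 4 → k)),
      (∀ (f : End k V) v, M f *ᵥ e v = e (f v)) ∧ (∀ f : End k V, (M f).det = LinearMap.det f) ∧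
      ∀ f : End k V, LinearMap.trace k V f = (M f).trace :=
    let b := finBasisOfFinrankEq k V hd
    ⟨LinearMap.toMatrixAlgEquiv b, b.equivFun, LinearMap.toMatrix_mulVec_repr b b,
      LinearMap.det_toMatrix b, LinearMap.trace_eq_matrix_trace k b⟩
  refine ⟨ρ0 M, j0 M, M.symm.toLinearMap ∘ₗ bl Sum.inl, h2, K.nd, K.dim, by simp, fun x => ?_,
    fun g hg x => ?_, fun g => ?_, fun X => ?_, ?_, fun X => ?_, fun g Y => ?_, fun g Y => ?_,
    fun a b Y => ?_, fun g => ?_, fun a b => ?_, fun g c hc c4 x => ?_, ?_, fun g ω hω h1 hT tv => ?_, ?_,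
    fun P irr R hR s hs => ?_⟩
  · simp [ι0_val, Bl_mul, K.sq, K.sq', ← Bl_one, Bl_smul]
  · obtain ⟨f, -, hf⟩ := rel0 M g ((hdet _).trans hg)
    refine ⟨f x, ?_⟩
    simp only [ρ0_val, ι0_val, Bl_mul, mul_zero, zero_mul, add_zero, zero_add, ← (hf x).1, ← (hf x).2,
      mul_assoc, ← transpose_mul, MM', transpose_one, mul_one]
    rw [← mul_assoc, ← transpose_mul, MM, transpose_one, one_mul]
  · simp [T, j0_val, ρ0_val, ρ0_inv, Bl_add, add_comm]
  · simp [j0_val, Bl_mul]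
  · simp [j0_val, Bl_one]
  · simp [j0_val, bl_inl]
  · obtain ⟨a, b, c, d, rfl⟩ := Bl_surj Y
    simp [ρ0_val, Bl_mul, bl_inl]
  · obtain ⟨a, b, c, d, rfl⟩ := Bl_surj Y
    simp [ρ0_val, Bl_mul, bl_inl]
  · obtain ⟨a, b, c, d, rfl⟩ := Bl_surj Y
    simp [ι0_val, Bl_mul, bl_inl, mul_assoc]
  · rw [ρ0_val, tr_Bl, trace_transpose, ts, htr, htr]
  · simp [ι0_val, Bl_mul, bl_inl, htr, K.tr]
  · have e1 : M g.1 = c • 1 := by simp [hc]
    have e2 := MM M g
    rw [e1, smul_mul_assoc, one_mul] at e2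
    simp only [ρ0_val, ι0_val, Bl_mul, Bl_smul, e1, mul_zero, zero_mul, add_zero, zero_add, smul_zero,
      Bl_inj, true_and, and_true, smul_mul_assoc, mul_smul_comm, one_mul, mul_one]
    constructor
    · rw [sq, mul_smul, ← mul_smul_comm, ← transpose_smul, e2, transpose_one, mul_one]
    · rw [← one_smul k (M g⁻¹.1), ← c4, pow_succ, mul_smul, e2]
      simp [smul_smul, ← pow_succ]
  · rw [ρ0_val, ← Bl_one, ← neg_one_smul k (Bl _ _ _ _), Bl_smul]; simp
  · refine quad0 M h2 g hω ((hdet _).trans h1) (by rw [← map_mul, sq_of_T hT]; simp) fun ⟨v, hv⟩ =>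
      tv ⟨e.symm v, fun x => (hv (e x)).imp fun c hc => e.injective (by simp [← he, hc])⟩
  · refine ⟨(LinearMap.lcomp k k e.toLinearMap).compRight k ∘ₗ LinearMap.lcomp k _ e.toLinearMap ∘ₗ
      (toLinearMap₂' k).toLinearMap ∘ₗ bl Sum.inr, fun X hX a => ?_, fun g X u v => ?_⟩
    · obtain ⟨a', b, c, d, rfl⟩ := Bl_surj X
      obtain rfl : c = 0 := (toLinearMap₂' (S₁ := k) (S₂ := k) k).injective (LinearMap.ext₂ fun u v => by
        simpa [bl_inr] using LinearMap.congr_fun₂ hX (e.symm u) (e.symm v))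
      simp [ι0_val, Bl_mul, bl_inl]
    · obtain ⟨a', b, c, d, rfl⟩ := Bl_surj X
      simp [ρ0_val, ρ0_inv, Bl_mul, bl_inr, toLinearMap₂'_apply', ← he, dotProduct_mulVec, vecMul_mulVec, mul_assoc]
  have hR' : ∀ g ∈ P, ∀ x ∈ R, ∃ y ∈ R, M g.1 * A1 k x = A1 k y * (M g⁻¹.1)ᵀ ∧
      (M g⁻¹.1)ᵀ * A2 k x = A2 k y * M g.1 := fun g hg x hx =>
    (hR g hg x hx).imp fun y hy => ⟨hy.1, by simpa [ρ0_val, ι0_val, Bl_mul, Bl_inj] using hy.2⟩
  rw [or_iff_not_imp_left, ← ne_eq, Submodule.ne_bot_iff]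
  rintro ⟨x, hx, x0⟩
  obtain ⟨v, w, rfl⟩ : ∃ v w, s = Sum.elim v w := ⟨_, _, (Sum.elim_comp_inl_inr s).symm⟩
  have hs' : ∀ x ∈ R, A1 k x *ᵥ w = 0 ∧ A2 k x *ᵥ v = 0 := fun x hx => by
    have := hs x hx
    rw [ι0_val, Bl_app] at this
    exact ⟨funext fun i => by simpa using congrFun this (.inl i),
      funext fun i => by simpa using congrFun this (.inr i)⟩
  have h1 : v = 0 := by
    have := (irr (⨅ x ∈ R, LinearMap.ker ((A2 k x).mulVecLin ∘ₗ e.toLinearMap)) fun g hg v hv => by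
      simp only [Submodule.mem_iInf, LinearMap.mem_ker, LinearMap.comp_apply, mulVecLin_apply,
        LinearEquiv.coe_coe] at hv ⊢
      intro x hx
      obtain ⟨y, hy, -, h⟩ := hR' g⁻¹ (P.inv_mem hg) x hx
      have := congrArg (fun X => (M g⁻¹.1)ᵀ * X * M g.1) h
      simp only [inv_inv, mul_assoc, MM', mul_one] at this
      rw [← mul_assoc, ← transpose_mul, MM, transpose_one, one_mul] at this
      rw [← he, mulVec_mulVec, this, ← mulVec_mulVec, hv y hy, mulVec_zero]).resolve_right fun t =>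
        x0 (K.inj' (ext_of_mulVec_single fun i => by
          have := LinearMap.mem_ker.1 ((Submodule.mem_iInf _).1 ((Submodule.mem_iInf _).1
            (Submodule.eq_top_iff'.1 t (e.symm (Pi.single i 1))) x) hx)
          simpa [-mulVec_single] using this))
    exact e.symm.injective (by
      simpa using (this ▸ (by simpa using fun x hx => (hs' x hx).2) : e.symm v ∈ (⊥ : Submodule k V)))
  have h3 : w = 0 := by
    have := (irr (⨅ w ∈ {w | ∀ x ∈ R, A1 k x *ᵥ w = 0},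
        LinearMap.ker (dotProductBilin k k w ∘ₗ e.toLinearMap)) fun g hg v hv => by
      simp only [Submodule.mem_iInf, LinearMap.mem_ker, LinearMap.comp_apply, LinearEquiv.coe_coe,
        dotProductBilin_apply_apply, Set.mem_setOf_eq] at hv ⊢
      intro w hw
      rw [← he, dotProduct_mulVec, ← mulVec_transpose]
      refine hv _ fun x hx => ?_
      obtain ⟨y, hy, h, -⟩ := hR' g hg x hx
      have := congrArg (fun X => M g⁻¹.1 * X * (M g.1)ᵀ) h
      simp only [mul_assoc, ← transpose_mul, MM, transpose_one, mul_one] at this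
      rw [← mul_assoc, MM', one_mul] at this
      rw [mulVec_mulVec, this, ← mulVec_mulVec, hw y hy, mulVec_zero]).resolve_left fun t =>
        x0 (K.inj (ext_of_mulVec_single fun i => by
          have : e.symm (A1 k x *ᵥ Pi.single i 1) ∈ (⊥ : Submodule k V) := t ▸ by
            simp only [Submodule.mem_iInf, LinearMap.mem_ker, LinearMap.comp_apply, LinearEquiv.coe_coe,
              dotProductBilin_apply_apply, Set.mem_setOf_eq, LinearEquiv.apply_symm_apply]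
            intro w hw
            rw [dotProduct_mulVec, ← mulVec_transpose, K.skew, neg_mulVec, hw x hx, neg_zero, zero_dotProduct]
          simpa [-mulVec_single] using this))
    exact dotProduct_eq_zero _ fun z => by
      have := LinearMap.mem_ker.1 ((Submodule.mem_iInf _).1 ((Submodule.mem_iInf _).1
        (Submodule.eq_top_iff'.1 this (e.symm z)) w) fun x hx => (hs' x hx).1)
      simpa using this
  simp [h1, h3]

end Cfsg.Agent.H9.E4
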