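import Cfsg.Agent.H9.E4.S0

/-! The spin module of `SL_4 = Spin_6`: Clifford calculus and irreducibility. -/

set_option autoImplicit false
set_option linter.unusedSimpArgs false
set_option linter.unusedSectionVars false
set_option linter.unusedVariables false

namespace Cfsg.Agent.H9.E4

open Module Cfsg.Agent.Orth Cfsg.Agent.H6.L4
open Cfsg.Agent.H6.S4 (nc T NoTv sq_of_T sqm_of_T wa span2)

universe u

variable {k V W S : Type*} [Field k] [AddCommGroup V] [Module k V] [FiniteDimensional k V]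
  [AddCommGroup W] [Module k W] [FiniteDimensional k W]
  [AddCommGroup S] [Module k S] [FiniteDimensional k S]
  {Q : QuadraticForm k W} {ι : W →ₗ[k] End k S} {ρ : (End k V)ˣ →* (End k S)ˣ}
  {j : End k V →ₗ[k] End k S} {pr : End k S →ₗ[k] End k V}
  {G : Type u} [Group G] {P : Subgroup (End k V)ˣ} {π : P →* G} {g g' : (End k V)ˣ} {a b x y : W}

/-- determinant one -/
def SL1 (k V : Type*) [Field k] [AddCommGroup V] [Module k V] : Subgroup (End k V)ˣ where
  carrier := {g | LinearMap.det g.1 = 1}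
  mul_mem' {a b} (ha : _ = _) (hb : _ = _) := by simp [ha, hb]
  one_mem' := by simp
  inv_mem' {a} (ha : _ = _) := by
    have := congrArg LinearMap.det a.mul_inv
    rwa [map_mul, ha, one_mul, map_one] at this

namespace Sp

variable (h : Sp Q ι ρ j pr)
include h

theorem nontriv : Nontrivial S := finrank_pos_iff.1 (show 0 < finrank k S by simp [h.dimS])

theorem sc' {a b : k} (e : a • (1 : End k S) = b • 1) : a = b :=
  have := h.nontriv
  smul_left_injective k one_ne_zero e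

theorem sqm (x : W) (X : End k S) : ι x * (ι x * X) = Q x • X := by
  rw [← mul_assoc, h.sq, smul_mul_assoc, one_mul]

theorem anti' (x y : W) : ι x * ι y = B Q x y • 1 - ι y * ι x := O6.anti_of_sq h.sq x y

theorem antim (x y : W) (X : End k S) : ι x * (ι y * X) = B Q x y • X - ι y * (ι x * X) := by
  rw [← mul_assoc, h.anti']; simp only [nc k S]

theorem ι_eq_zero : ι x = 0 ↔ x = 0 :=
  ⟨fun e => h.nd x fun y => h.sc' (by simpa [e] using (h.anti' y x).symm), fun e => by rw [e, map_zero]⟩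

theorem inj' (e : ι x = ι y) : x = y := sub_eq_zero.1 (h.ι_eq_zero.1 (by rw [map_sub, e, sub_self]))

theorem four_ne : (4 : k) ≠ 0 := by
  have := h.two
  rw [show (4 : k) = 2 * 2 by norm_num]; exact mul_ne_zero this this

theorem ι3 (x y : W) : ι x * (ι y * ι x) = ι (B Q x y • x - Q x • y) := by
  rw [h.antim, h.sq]; simp only [map_sub, map_smul, nc k S]

theorem br (z a b : W) : ι z * (ι a * ι b) - ι a * (ι b * ι z) = ι (B Q z a • b - B Q z b • a) := by
  rw [h.antim, h.anti' z b]; simp only [map_sub, map_smul, nc k S]; abel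

theorem exists_b (e : ∀ c : k, y ≠ c • x) : ∃ z, B Q z x = 0 ∧ B Q z y = 1 := by
  obtain ⟨z, hz, hz'⟩ := Nd.exists_perp_B_ne h.nd (X := k ∙ x) (a := y) (fun hy => by
    obtain ⟨c, hc⟩ := Submodule.mem_span_singleton.1 hy
    exact e c hc.symm)
  rw [mem_perp_span_singleton] at hz
  exact ⟨(B Q y z)⁻¹ • z, by simp [B_comm Q z, hz], by simp [B_comm Q z, hz']⟩

theorem dep_of_scal {c : k} (ha : a ≠ 0) (e : ι a * ι b = c • 1) : ∃ c : k, b = c • a := by
  by_contra! hh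
  obtain ⟨z, h1, h2⟩ := h.exists_b hh
  have : B Q z a • b - B Q z b • a = 0 := h.ι_eq_zero.1 (by
    rw [← h.br, ← mul_assoc (ι a), e]; simp only [nc k S, sub_self])
  exact ha (by simpa [h1, h2] using this)

theorem comm_ι (ha : a ≠ 0) (e : ι a * ι b = ι b * ι a) : ∃ c : k, b = c • a := by
  refine h.dep_of_scal (c := B Q a b / 2) ha ?_
  have h2 := h.two
  have := h.anti' a b
  rw [← e] at this
  refine smul_right_injective _ h2 ?_
  simp only [smul_smul, mul_div_cancel₀ _ h2]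
  linear_combination (norm := module) this

theorem ι_cancel (hu : Q a = 1) {X Y : End k S} (e : ι a * X = ι a * Y) : X = Y := by
  simpa only [h.sqm, hu, one_smul] using congrArg (ι a * ·) e

theorem ι_wa (hg : g ∈ SL1 k V) (x : W) : ι (wa ι (ρ g) x) = (ρ g).1 * ι x * (ρ g)⁻¹.1 := by
  obtain ⟨y, hy⟩ := h.act g hg x
  have hk : LinearMap.ker ι = ⊥ := LinearMap.ker_eq_bot'.2 fun x hx => h.ι_eq_zero.1 hx
  have e : (ρ g).1 * ι x * (ρ g)⁻¹.1 = ι y := by rw [hy]; simp only [nc k S]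
  have : wa ι (ρ g) x = y := by
    simp only [wa, LinearMap.comp_apply, LinearMap.mulLeft_apply, LinearMap.mulRight_apply]
    rw [← mul_assoc, e, LinearMap.leftInverse_apply_of_inj hk]
  rw [this, e]

theorem wa_eq (hg : g ∈ SL1 k V) : wa ι (ρ g) x = y ↔ (ρ g).1 * ι x = ι y * (ρ g).1 := by
  constructor
  · rintro rfl; rw [h.ι_wa hg]; simp only [nc k S]
  · intro e; apply h.inj'; rw [h.ι_wa hg, e]; simp only [nc k S]

theorem wa_mul (hg : g ∈ SL1 k V) (hg' : g' ∈ SL1 k V) (x : W) :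
    wa ι (ρ (g * g')) x = wa ι (ρ g) (wa ι (ρ g') x) := h.inj' (by
  rw [h.ι_wa (mul_mem hg hg'), h.ι_wa hg, h.ι_wa hg']; simp only [map_mul, nc k S])

theorem wa_one (x : W) : wa ι (ρ 1) x = x := (h.wa_eq (one_mem _)).2 (by simp)

theorem wa_ui (hg : g ∈ SL1 k V) (x : W) : wa ι (ρ g⁻¹) (wa ι (ρ g) x) = x := by
  rw [← h.wa_mul (inv_mem hg) hg, inv_mul_cancel, h.wa_one]

theorem wa_iu (hg : g ∈ SL1 k V) (x : W) : wa ι (ρ g) (wa ι (ρ g⁻¹) x) = x := by
  rw [← h.wa_mul hg (inv_mem hg), mul_inv_cancel, h.wa_one]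

theorem Q_wa (hg : g ∈ SL1 k V) (x : W) : Q (wa ι (ρ g) x) = Q x := h.sc' (by
  rw [← h.sq, h.ι_wa hg]; simp only [nc k S, h.sqm])

theorem b_wa (hg : g ∈ SL1 k V) (x y : W) : B Q (wa ι (ρ g) x) (wa ι (ρ g) y) = B Q x y := by
  have := h.Q_wa hg (x + y)
  rw [map_add, Q_add, Q_add, h.Q_wa hg, h.Q_wa hg] at this
  exact add_left_cancel this

theorem inv_pair (e : (ρ g).1 = ι a * ι b) (qa : Q a = 1) (qb : Q b = 1) : (ρ g)⁻¹.1 = ι b * ι a :=
  Units.inv_eq_of_mul_eq_one_right (by rw [e]; simp only [nc k S, h.sqm, h.sq, qa, qb, one_smul])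

theorem T_pair (e : (ρ g).1 = ι a * ι b) (qa : Q a = 1) (qb : Q b = 1) : T (ρ g) = B Q a b • 1 := by
  rw [T, h.inv_pair e qa qb, e, h.anti' a b, sub_add_cancel]

theorem wa_pair (hg : g ∈ SL1 k V) (e : (ρ g).1 = ι a * ι b) (qa : Q a = 1) (qb : Q b = 1) (x : W) :
    wa ι (ρ g) x = x - (B Q a x - B Q a b * B Q b x) • a - B Q b x • b := by
  apply h.inj'
  rw [h.ι_wa hg, h.inv_pair e qa qb, e]
  have e1 : ι a * ι b * ι x * (ι b * ι a) = ι a * ((ι b * (ι x * ι b)) * ι a) := by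
    simp only [nc k S]
  rw [e1, h.ι3, h.ι3]
  congr 1
  simp only [map_sub, map_smul, smul_eq_mul, qa, qb]
  module

theorem pr1 : pr 1 = 1 := by rw [← h.j1, h.prj]

theorem prρ (g : (End k V)ˣ) : pr (ρ g).1 = g.1 := by simpa [h.pr1] using h.prm g 1

theorem ρ_inj (e : (ρ g).1 = (ρ g').1) : g = g' := Units.ext (by rw [← h.prρ, e, h.prρ])

theorem T_iff {s : k} : T (ρ g) = s • 1 ↔ T g = s • 1 :=
  ⟨fun e => by rw [← h.prj (T g), h.jT, e, map_smul, h.pr1], fun e => by rw [← h.jT, e, map_smul, h.j1]⟩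

theorem wa_sc (hs : St P π) (hg : g ∈ P) (e : Sc g) :
    ∃ ε : k, ε * ε = 1 ∧ ∀ x, wa ι (ρ g) x = ε • x :=
  let ⟨c, hc⟩ := e
  ⟨c ^ 2, by linear_combination hs.four hg hc, fun x => (h.wa_eq (hs.det g hg)).2 (by
    rw [h.sca g c hc (hs.four hg hc), map_smul, smul_mul_assoc])⟩

theorem joint (R : Submodule k W) (hR : ∀ x ∈ R, ∀ y ∈ R, B Q x y = 0) :
    ∃ s ≠ 0, ∀ x ∈ R, ι x s = 0 := by
  let An : S → Submodule k W := fun s => R ⊓ LinearMap.ker (LinearMap.applyₗ s ∘ₗ ι)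
  have := h.nontriv
  obtain ⟨s, s0, hs⟩ := (wellFounded_gt (α := Submodule k W)).has_min (An '' {s | s ≠ 0})
    (let ⟨s, hs⟩ := exists_ne (0 : S); ⟨_, s, hs, rfl⟩)
  obtain ⟨s, s0, rfl⟩ := s0
  refine ⟨s, s0, fun y hy => by_contra fun n => hs _ ⟨_, n, rfl⟩ (lt_of_le_of_ne (fun x hx => ⟨hx.1, ?_⟩)
    fun e => n (e.ge (⟨hy, ?_⟩ : y ∈ An (ι y s))).2)⟩
  · have e : ι x s = 0 := hx.2
    have := LinearMap.congr_fun (h.anti' x y) s
    simpa [hR x hx.1 y hy, e] using this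
  · have q : Q y = 0 := mul_left_cancel₀ h.two (by rw [← B_self, hR y hy y hy, mul_zero])
    simpa [q] using LinearMap.congr_fun (h.sq y) s

theorem odd0 (hs : St P π) {X : End k S} (hX : ∀ g ∈ P, ∃ c : k, (ρ g).1 * X * (ρ g)⁻¹.1 = c • X)
    (a : W) : pr (ι a * X) = 0 := by
  obtain ⟨β, h1, h2⟩ := h.form
  refine h1 X (hs.nsd _ fun g hg => ?_) a
  obtain ⟨c, hc⟩ := hX _ (P.inv_mem hg)
  rw [map_inv, inv_inv] at hc
  exact ⟨c, fun u v => by rw [← h2, hc]; simp⟩

theorem pr_ne (hs : St P π) (ab : B Q a b = 0) (qa : Q a ≠ 0) (qb : Q b ≠ 0) : pr (ι a * ι b) ≠ 0 :=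
  fun e => by
  have := h.prm2 a b (ι a * ι b)
  rw [e, zero_mul, h.antim b a, B_comm, ab, h.sq] at this
  simp only [nc k S, zero_smul, zero_sub, h.sq, map_neg, map_smul, h.pr1, neg_eq_zero] at this
  have nt := hs.nontriv
  simp [qa, qb] at this

theorem perp_inv {U : Submodule k W} (hs : St P π) (hU : ∀ g ∈ P, ∀ w ∈ U, wa ι (ρ g) w ∈ U) :
    ∀ g ∈ P, ∀ w ∈ perp Q U, wa ι (ρ g) w ∈ perp Q U := fun g hg w hw => mem_perp.2 fun u hu => by
  have := mem_perp.1 hw _ (hU _ (P.inv_mem hg) u hu)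
  rwa [← h.b_wa (hs.det g hg), h.wa_iu (hs.det g hg)] at this

theorem peel {U : Submodule k W} (hU : NdOn Q U) : U = ⊥ ∨ ∃ a ∈ U, Q a ≠ 0 ∧ ∃ U' ≤ U, NdOn Q U' ∧
    finrank k U' + 1 = finrank k U ∧ (∀ w ∈ U', B Q a w = 0) ∧ ∀ w ∈ U, ∃ c : k, w - c • a ∈ U' := by
  refine or_iff_not_imp_left.2 fun n => ?_
  have := Submodule.one_le_finrank_iff.2 n
  obtain ⟨a, ha, qa⟩ := hU.exists_nonsing le_rfl (by omega)
  have s : k ∙ a ≤ U := by simpa using ha
  have d := hU.finrank_inf_perp s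
  rw [finrank_span_singleton (by rintro rfl; simp at qa)] at d
  refine ⟨a, ha, qa, _, inf_le_left, hU.inf_perp (fun v hv e => by
      obtain ⟨c, rfl⟩ := Submodule.mem_span_singleton.1 hv
      have := e a (Submodule.mem_span_singleton_self a)
      simp [B_self, h.two, qa] at this
      simp [this]) s, d,
    fun w hw => mem_perp_span_singleton.1 hw.2, fun w hw => ⟨B Q a w / (2 * Q a),
      U.sub_mem hw (U.smul_mem _ ha), mem_perp_span_singleton.2 ?_⟩⟩
  have := h.two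
  simp [B_self]; field_simp; ring

theorem irrW [IsAlgClosed k] (hs : St P π) (U : Submodule k W)
    (hU : ∀ g ∈ P, ∀ w ∈ U, wa ι (ρ g) w ∈ U) : U = ⊥ ∨ U = ⊤ := by
  have key : ∀ U : Submodule k W, (∀ g ∈ P, ∀ w ∈ U, wa ι (ρ g) w ∈ U) → finrank k U ≤ 3 → U = ⊥ := by
    intro U hU hd
    have nd : NdOn Q U := ndOn_iff_disjoint.2 (disjoint_iff.2 (by
      obtain ⟨s, s0, e⟩ := h.joint (U ⊓ perp Q U) fun x hx y hy => hy.2 x hx.1
      exact (h.ker P hs.irr _ (fun g hg x hx => ⟨_, Submodule.mem_inf.2 ⟨hU g hg x hx.1, h.perp_inv hs hU g hg x hx.2⟩,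
        (h.wa_eq (hs.det g hg)).1 rfl⟩) s e).resolve_right s0))
    have nt := hs.nontriv
    refine (h.peel nd).resolve_right ?_
    rintro ⟨a, ha, qa, U1, l1, n1, d1, p1, s1⟩
    rcases h.peel n1 with rfl | ⟨b, hb, qb, U2, l2, n2, d2, p2, s2⟩
    · have := h.odd0 hs (X := ι a) (fun g hg => (s1 _ (hU g hg a ha)).imp fun c e => by
        rw [← h.ι_wa (hs.det g hg), sub_eq_zero.1 e, map_smul]) a
      simp [h.sq, h.pr1, qa] at this
    have ab := p1 b hb
    have cj : ∀ g ∈ P, ∀ x y, (ρ g).1 * (ι x * ι y) * (ρ g)⁻¹.1 = ι (wa ι (ρ g) x) * ι (wa ι (ρ g) y) :=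
      fun g hg x y => by simp only [h.ι_wa (hs.det g hg), nc k S]
    rcases h.peel n2 with rfl | ⟨c, hc, qc, U3, l3, n3, d3, p3, s3⟩
    · have s : ∀ w ∈ U, ∃ c d : k, w = c • a + d • b := fun w hw =>
        let ⟨c, e⟩ := s1 w hw
        let ⟨d, e'⟩ := s2 _ e
        ⟨c, d, by rw [← sub_eq_zero.1 e', add_sub_cancel]⟩
      obtain ⟨c, e⟩ := hs.semi (X := pr (ι a * ι b)) fun g hg => by
        obtain ⟨c, d, e⟩ := s _ (hU g hg a ha)
        obtain ⟨c', d', e'⟩ := s _ (hU g hg b (l1 hb))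
        have f := h.b_wa (hs.det g hg) a b
        refine ⟨c * d' - d * c', ?_⟩
        rw [← h.prm, ← h.prm', map_inv, cj g hg, ← map_smul]
        rw [e, e'] at f ⊢
        simp only [map_add, map_smul, nc k S, h.sq, h.anti' b a, B_comm Q b a, ab, B_self,
          LinearMap.add_apply, LinearMap.smul_apply, smul_eq_mul, map_sub, h.pr1] at f ⊢
        have f' : c * c' * Q a + d * d' * Q b = 0 := mul_left_cancel₀ h.two (by linear_combination f)
        linear_combination (norm := module) f' • (1 : End k V)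
      have := h.trV a b
      rw [e, ab] at this
      simp only [map_smul, LinearMap.trace_one, hs.dim, smul_eq_mul, mul_zero, mul_eq_zero] at this
      exact h.pr_ne hs ab qa qb (by rw [e, this.resolve_right (by exact_mod_cast h.four_ne), zero_smul])
    obtain rfl : U3 = ⊥ := Submodule.finrank_eq_zero.1 (by omega)
    have ac := p1 c (l2 hc)
    have bc := p2 c hc
    have s : ∀ w ∈ U, ∃ x y z : k, w = x • a + y • b + z • c := fun w hw =>
      let ⟨x, e⟩ := s1 w hw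
      let ⟨y, e'⟩ := s2 _ e
      let ⟨z, e''⟩ := s3 _ e'
      ⟨x, y, z, by rw [← sub_eq_zero.1 e'']; abel⟩
    have := h.odd0 hs (X := ι a * (ι b * ι c)) (fun g hg => by
      obtain ⟨x, y, z, e⟩ := s _ (hU g hg a ha)
      obtain ⟨x', y', z', e'⟩ := s _ (hU g hg b (l1 hb))
      obtain ⟨x'', y'', z'', e''⟩ := s _ (hU g hg c (l1 (l2 hc)))
      have f1 := h.b_wa (hs.det g hg) a b
      have f2 := h.b_wa (hs.det g hg) a c
      have f3 := h.b_wa (hs.det g hg) b c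
      refine ⟨x * (y' * z'' - z' * y'') - y * (x' * z'' - z' * x'') + z * (x' * y'' - y' * x''), ?_⟩
      rw [show (ρ g).1 * (ι a * (ι b * ι c)) * (ρ g)⁻¹.1 = ι (wa ι (ρ g) a) * (ι (wa ι (ρ g) b) *
        ι (wa ι (ρ g) c)) by simp only [h.ι_wa (hs.det g hg), nc k S]]
      rw [e, e', e''] at *
      simp only [map_add, map_smul, nc k S, h.sq, h.sqm, h.anti' b a, h.anti' c a, h.anti' c b,
        h.antim b a, h.antim c a, h.antim c b, B_comm Q b a, B_comm Q c a, B_comm Q c b, ab, ac, bc,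
        B_self, LinearMap.add_apply, LinearMap.smul_apply, smul_eq_mul] at f1 f2 f3 ⊢
      have g1 : x * x' * Q a + y * y' * Q b + z * z' * Q c = 0 :=
        mul_left_cancel₀ h.two (by linear_combination f1)
      have g2 : x * x'' * Q a + y * y'' * Q b + z * z'' * Q c = 0 :=
        mul_left_cancel₀ h.two (by linear_combination f2)
      have g3 : x' * x'' * Q a + y' * y'' * Q b + z' * z'' * Q c = 0 :=
        mul_left_cancel₀ h.two (by linear_combination f3)
      linear_combination (norm := module) g1 • (x'' • ι a + y'' • ι b + z'' • ι c) -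
        g2 • (x' • ι a + y' • ι b + z' • ι c) + g3 • (x • ι a + y • ι b + z • ι c)) a
    rw [h.sqm, map_smul] at this
    exact h.pr_ne hs bc qb qc ((smul_eq_zero.1 this).resolve_left qa)
  by_cases hd : finrank k U ≤ 3
  · exact Or.inl (key U hU hd)
  · right
    have := h.nd.finrank_perp U
    rw [← h.nd.perp_perp U, key (perp Q U) (h.perp_inv hs hU) (by have := h.dim; omega), perp_bot]

theorem irrWX [IsAlgClosed k] (hs : St P π) {X : Set (End k V)ˣ} (hX : ∀ x ∈ X, x ∈ P)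
    (hc : ∀ g ∈ P, ∀ x ∈ X, g * x * g⁻¹ ∈ X) (hx : g ∈ X) (h1 : ¬ Sc g)
    (U : Submodule k W) (hU : ∀ g ∈ X, ∀ w ∈ U, wa ι (ρ g) w ∈ U) : U = ⊥ ∨ U = ⊤ :=
  h.irrW hs U (hs.ind hX hc hx h1 (fun g => ∀ w ∈ U, wa ι (ρ g) w ∈ U)
    (fun g hg e w hw => by
      obtain ⟨ε, -, e⟩ := h.wa_sc hs hg e
      exact e w ▸ U.smul_mem ε hw)
    (fun a ha b hb h1 h2 w hw => by
      rw [h.wa_mul (hs.det a ha) (hs.det b hb)]; exact h1 _ (h2 w hw)) hU)

end Sp

end Cfsg.Agent.H9.E4
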