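import Cfsg.Agent.H9.E4.S2

/-! Pairs of quadratic elements of order three in `SL_4`. -/

set_option autoImplicit false
set_option linter.unusedSimpArgs false
set_option linter.unusedSectionVars false
set_option linter.unusedVariables false

namespace Cfsg.Agent.H9.E4

open Module Cfsg.Agent.Orth Cfsg.Agent.H6.L4
open Cfsg.Agent.H6.S4 (nc T NoTv sq_of_T sqm_of_T wa T_two_iff inv_of_T)

universe u

variable {k V W S : Type*} [Field k] [AddCommGroup V] [Module k V] [FiniteDimensional k V]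
  [AddCommGroup W] [Module k W] [FiniteDimensional k W]
  [AddCommGroup S] [Module k S] [FiniteDimensional k S]
  {Q : QuadraticForm k W} {ι : W →ₗ[k] End k S} {ρ : (End k V)ˣ →* (End k S)ˣ}
  {j : End k V →ₗ[k] End k S} {pr : End k S →ₗ[k] End k V} {p : ℕ}
  {G : Type u} [Group G] {P : Subgroup (End k V)ˣ} {π : P →* G} {g g' x : (End k V)ˣ}
  {a b c d e w y z : W}

/-- the setting -/
structure Z (p : ℕ) (P : Subgroup (End k V)ˣ) {G : Type u} [Group G] (π : P →* G)
    (Q : QuadraticForm k W) (ι : W →ₗ[k] End k S) (ρ : (End k V)ˣ →* (End k S)ˣ)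
    (j : End k V →ₗ[k] End k S) (pr : End k S →ₗ[k] End k V) : Prop extends S2 p P π where
  sp : Sp Q ι ρ j pr
  qd : Quad P
  p3 : Pair3 P

/-- presentation of a quadratic element of order three -/
structure Pr (Q : QuadraticForm k W) (ι : W →ₗ[k] End k S) (ρ : (End k V)ˣ →* (End k S)ˣ)
    (j : End k V →ₗ[k] End k S) (pr : End k S →ₗ[k] End k V) (g : (End k V)ˣ) (a b : W) : Prop where
  cl : Sp Q ι ρ j pr
  sp : g ∈ SL1 k V
  qa : Q a = 1
  qb : Q b = 1
  ab : B Q a b = -1
  e : (ρ g).1 = ι a * ι b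
  ne : a ≠ b

/-- the plane spanned by two vectors -/
def In (k : Type*) [Field k] [Module k W] (a b y : W) : Prop := ∃ α β : k, y = α • a + β • b

theorem In.l (a b : W) : In k a b a := ⟨1, 0, by simp⟩

theorem In.r (a b : W) : In k a b b := ⟨0, 1, by simp⟩

theorem In.smul (h : In k a b y) (t : k) : In k a b (t • y) :=
  let ⟨α, β, e⟩ := h; ⟨t * α, t * β, by rw [e]; module⟩

theorem In.trans (h : In k c d y) (hc : In k a b c) (hd : In k a b d) : In k a b y :=
  let ⟨α, β, e⟩ := h; let ⟨γ, δ, e1⟩ := hc; let ⟨γ', δ', e2⟩ := hd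
  ⟨α * γ + β * γ', α * δ + β * δ', by rw [e, e1, e2]; module⟩

/-- the determinant of the pairing of two planes -/
def om (Q : QuadraticForm k W) (a b c d : W) : k := B Q a c * B Q b d - B Q a d * B Q b c

/-- the norm of a projection -/
def nr (s t : k) : k := s ^ 2 + s * t + t ^ 2

/-- the norm of the pairing of two planes -/
def Sg (Q : QuadraticForm k W) (a b c d : W) : k :=
  nr (B Q a c) (B Q a d) + nr (B Q b c) (B Q b d) + nr (B Q a c + B Q b c) (B Q a d + B Q b d)

theorem Sp.tr2 (h : Sp Q ι ρ j pr) (a b : W) : LinearMap.trace k S (ι a * ι b) = 4 * B Q a b := by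
  have e := congrArg (LinearMap.trace k S) (h.anti' a b)
  rw [map_sub, LinearMap.trace_mul_comm k (ι b)] at e
  simp only [map_smul, LinearMap.trace_one, h.dimS, smul_eq_mul] at e
  apply mul_left_cancel₀ h.two
  push_cast at e
  linear_combination e

theorem Sp.tr4 (h : Sp Q ι ρ j pr) (a b c d : W) : LinearMap.trace k S (ι a * (ι b * (ι c * ι d))) =
    2 * (B Q a b * B Q c d - B Q a c * B Q b d + B Q a d * B Q b c) := by
  have e : ι a * (ι b * (ι c * ι d)) = B Q a b • (ι c * ι d) - B Q a c • (ι b * ι d) +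
      B Q a d • (ι b * ι c) - (ι b * (ι c * ι d)) * ι a := by
    simp only [nc k S, h.antim a b, h.antim a c, h.anti' a d]; module
  have := congrArg (LinearMap.trace k S) e
  simp only [map_sub, map_add, map_smul, h.tr2, smul_eq_mul] at this
  rw [LinearMap.trace_mul_comm k (ι b * (ι c * ι d))] at this
  apply mul_left_cancel₀ h.two
  linear_combination this

namespace Pr

variable (h : Pr Q ι ρ j pr g a b)
include h

theorem a0 : a ≠ 0 := fun e => by simpa [e] using h.qa

theorem ind (c : k) : b ≠ c • a := fun e => by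
  have a1 := h.qb
  have a2 := h.ab
  rw [e, Q_smul, h.qa, mul_one] at a1
  rw [e, map_smul, B_self, h.qa, smul_eq_mul] at a2
  rcases mul_self_eq_one_iff.1 a1 with rfl | rfl
  · exact h.ne (by simp [e])
  · exact one_ne_zero (α := k) (by linear_combination -a2)

theorem hT : T g = (-1 : k) • 1 := h.cl.T_iff.1 (h.ab ▸ h.cl.T_pair h.e h.qa h.qb)

theorem inv : Pr Q ι ρ j pr g⁻¹ b a := ⟨h.cl, inv_mem h.sp, h.qb, h.qa, by rw [B_comm, h.ab],
  by rw [map_inv, h.cl.inv_pair h.e h.qa h.qb], h.ne.symm⟩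

theorem act (x : W) : wa ι (ρ g) x = x - (B Q a x + B Q b x) • a - B Q b x • b := by
  rw [h.cl.wa_pair h.sp h.e h.qa h.qb, h.ab]; congr 3; ring

theorem Q_comb (α β : k) : Q (α • a + β • b) = α ^ 2 - α * β + β ^ 2 := by
  simp only [Q_add, Q_smul, h.qa, h.qb, map_smul, LinearMap.smul_apply, h.ab, smul_eq_mul]
  ring

theorem ne1 : g ≠ 1 := by
  rintro rfl
  exact h.ne (h.cl.inj' (h.cl.ι_cancel h.qa (by rw [← h.e, h.cl.sq, h.qa]; simp)))

theorem x3 (hg : g ∈ P) : X3 P g := ⟨hg, h.hT, h.ne1⟩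

theorem zero {α β : k} (e : α • a + β • b = 0) : α = 0 ∧ β = 0 :=
  H6.S4.indep2 h.a0 h.ind (c' := 0) (d' := 0) (by simpa using e)

theorem conj (hx : x ∈ SL1 k V) : Pr Q ι ρ j pr (x * g * x⁻¹) (wa ι (ρ x) a) (wa ι (ρ x) b) :=
  ⟨h.cl, mul_mem (mul_mem hx h.sp) (inv_mem hx), by rw [h.cl.Q_wa hx, h.qa], by rw [h.cl.Q_wa hx, h.qb],
    by rw [h.cl.b_wa hx, h.ab], by simp only [map_mul, map_inv, h.cl.ι_wa hx, nc k S, h.e],
    fun e => h.ne (by rw [← h.cl.wa_ui hx a, e, h.cl.wa_ui hx])⟩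

theorem base (hy : In k a b y) (qy : Q y = 1) : ∃ z, Pr Q ι ρ j pr g y z := by
  obtain ⟨α, β, rfl⟩ := hy
  have q := h.Q_comb α β
  rw [qy] at q
  have e : (ρ g).1 = ι (α • a + β • b) * ι ((-β) • a + (α - β) • b) := by
    simp only [h.e, map_add, map_smul, nc k S, h.cl.sq, h.qa, h.qb, h.cl.anti' b a, h.inv.ab]
    linear_combination (norm := module) q • (ι a * ι b)
  refine ⟨_, h.cl, h.sp, qy, by rw [h.Q_comb, q]; ring, ?_, e, fun e' => h.ne1 (h.cl.ρ_inj (by
    rw [e, ← e', h.cl.sq, qy]; simp))⟩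
  simp only [map_add, map_smul, LinearMap.add_apply, LinearMap.smul_apply, B_self, h.qa, h.qb, h.ab,
    h.inv.ab, smul_eq_mul]
  linear_combination q

theorem span (h' : Pr Q ι ρ j pr g c d) : In k a b c ∧ In k a b d := by
  have key : ∀ {g : (End k V)ˣ} {a b c d : W}, Pr Q ι ρ j pr g a b → Pr Q ι ρ j pr g c d → In k a b c := fun {g a b c d} h h' => by
    obtain ⟨z, z1, z2⟩ := h.cl.exists_b h'.inv.ind
    have := (h.act z).symm.trans (h'.act z)
    rw [B_comm Q c, B_comm Q d, z1, z2] at this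
    exact ⟨B Q a z + B Q b z, B Q b z, by linear_combination (norm := module) this⟩
  obtain ⟨α, β, e⟩ := key h.inv h'.inv
  exact ⟨key h h', β, α, by rw [e, add_comm]⟩

theorem T4 (p2 : Pr Q ι ρ j pr g' c d) :
    T (ρ (g * g')) = ι a * (ι b * (ι c * ι d)) + ι d * (ι c * (ι b * ι a)) := by
  rw [T, ← map_inv, mul_inv_rev]; simp only [map_mul, nc k S, h.e, p2.e, h.inv.e, p2.inv.e]

theorem T_tr (p2 : Pr Q ι ρ j pr g' c d) : LinearMap.trace k S (T (ρ (g * g'))) = 4 * (1 - om Q a b c d) := by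
  rw [h.T4 p2, map_add, h.cl.tr4, h.cl.tr4, om]
  simp only [h.ab, p2.ab, h.inv.ab, p2.inv.ab, B_comm Q d, B_comm Q c a, B_comm Q c b]
  ring

theorem T_scal (p2 : Pr Q ι ρ j pr g' c d) {s : k} (e : T (g * g') = s • 1) : om Q a b c d = 1 - 2 * s := by
  have := h.T_tr p2
  rw [h.cl.T_iff.2 e, map_smul, LinearMap.trace_one, h.cl.dimS, smul_eq_mul] at this
  apply mul_left_cancel₀ h.cl.four_ne
  push_cast at this
  linear_combination this

theorem T_sqr (p2 : Pr Q ι ρ j pr g' c d) : (2 : k) • (T (g * g') * T (g * g')) =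
    (2 - 2 * om Q a b c d) • T (g * g') + (4 - Sg Q a b c d + om Q a b c d) • 1 := by
  have cl := h.cl
  suffices (2 : k) • (T (ρ (g * g')) * T (ρ (g * g'))) = (2 - 2 * om Q a b c d) • T (ρ (g * g')) +
      (4 - Sg Q a b c d + om Q a b c d) • 1 by
    simpa only [← cl.jT, ← cl.jsq, map_add, map_smul, cl.prj, cl.pr1] using congrArg pr this
  simp only [h.T4 p2, om, Sg, nr, nc k S, cl.antim b a, cl.antim c a, cl.antim c b, cl.antim d a,
    cl.antim d b, cl.antim d c, cl.anti' b a, cl.anti' c a, cl.anti' c b, cl.anti' d a, cl.anti' d b,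
    cl.anti' d c, cl.sqm, cl.sq, B_comm Q b a, B_comm Q c a, B_comm Q c b,
    B_comm Q d a, B_comm Q d b, B_comm Q d c, h.qa, h.qb, p2.qa, p2.qb, h.ab, p2.ab, one_smul]
  module

theorem T_poly (hs : St P π) (p2 : Pr Q ι ρ j pr g' c d) {s t : k}
    (e : T (g * g') * T (g * g') = s • T (g * g') + t • 1) (n : ∀ s : k, T (g * g') ≠ s • 1) :
    om Q a b c d = 1 - s ∧ Sg Q a b c d = 5 - s - 2 * t := by
  have e2 := h.T_sqr p2
  rw [e] at e2
  have e3 : (2 * (om Q a b c d - 1 + s)) • T (g * g') = (4 - Sg Q a b c d + om Q a b c d - 2 * t) • 1 := by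
    linear_combination (norm := module) e2
  have o : om Q a b c d - 1 + s = 0 := by
    by_contra o
    have o' := mul_ne_zero h.cl.two o
    exact n _ (by rw [← one_smul k (T _), ← inv_mul_cancel₀ o', mul_smul, e3, smul_smul])
  rw [o] at e3
  have := hs.sc' (a := 0) (by rw [← e3]; simp)
  exact ⟨by linear_combination o, by linear_combination this + o⟩

theorem T_dep (p2 : Pr Q ι ρ j pr g' c d) (y0 : y ≠ 0) (h1 : In k a b y) (h2 : In k c d y) :
    ∃ s : k, T (g * g') = s • 1 := by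
  have cl := h.cl
  have alt4 : ∀ (a b c d : W) (α β γ : k), d = α • a + β • b + γ • c →
      ∃ s : k, ι a * (ι b * (ι c * ι d)) + ι d * (ι c * (ι b * ι a)) = s • 1 := fun a b c d α β γ hd => by
    refine ⟨α * (B Q a b * B Q a c - B Q a c * B Q a b + Q a * B Q b c) +
      β * (B Q a b * B Q b c - B Q a c * Q b) + γ * (B Q a b * Q c), ?_⟩
    simp only [hd, map_add, map_smul, nc k S, cl.antim b a, cl.antim c a, cl.antim c b, cl.anti' b a,
      cl.anti' c a, cl.anti' c b, cl.sqm, cl.sq, B_comm Q b a, B_comm Q c a, B_comm Q c b]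
    module
  obtain ⟨α, β, e1⟩ := h1
  obtain ⟨γ, δ, e2⟩ := h2
  simp only [← cl.T_iff, h.T4 p2]
  by_cases δ0 : δ = 0
  · have γ0 : γ ≠ 0 := by rintro rfl; simp [e2, δ0] at y0
    obtain ⟨s, hs⟩ := alt4 a b d c (γ⁻¹ * α) (γ⁻¹ * β) 0 (by
      apply smul_right_injective _ γ0
      simp only [smul_add, smul_smul, mul_inv_cancel_left₀ γ0, mul_zero, zero_smul]
      rw [δ0] at e2
      linear_combination (norm := module) e1 - e2)
    refine ⟨B Q c d * B Q a b - s, ?_⟩
    rw [sub_smul, ← hs]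
    simp only [nc k S, cl.anti' d c, cl.antim d c, cl.anti' b a, B_comm Q d c, B_comm Q b a]
    module
  · exact alt4 a b c d (δ⁻¹ * α) (δ⁻¹ * β) (δ⁻¹ * -γ) (by
      apply smul_right_injective _ δ0
      simp only [smul_add, smul_smul, mul_inv_cancel_left₀ δ0]
      linear_combination (norm := module) e1 - e2)

theorem dep3 (e1 : ι a * (ι b * ι c) = ι c * (ι b * ι a)) : In k a b c := by
  have cl := h.cl
  by_contra n
  obtain ⟨y, y1, y2⟩ := Nd.exists_perp_B_ne cl.nd (X := Submodule.span k {a, b}) (a := c) fun hc =>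
    let ⟨α, β, e⟩ := Submodule.mem_span_pair.1 hc; n ⟨α, β, e.symm⟩
  simp only [mem_perp_span, Set.mem_insert_iff, Set.mem_singleton_iff, forall_eq_or_imp, forall_eq] at y1
  have e2 : ι a * ι b = ι b * ι a := smul_right_injective _ y2 (by
    have := congrArg (fun X => X * ι y + ι y * X) e1
    simp only [nc k S, cl.anti' c y, cl.anti' a y, cl.antim a y, cl.antim b y, cl.antim c y,
      y1, zero_smul, zero_sub, sub_self, smul_zero, neg_neg] at this
    simp only
    linear_combination (norm := module) this)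
  obtain ⟨c, hc⟩ := cl.comm_ι h.a0 e2
  exact h.ind c hc

theorem meet (h' : Pr Q ι ρ j pr g' c d) {s : k} (e : T (g * g') = s • 1) :
    ∃ y, y ≠ 0 ∧ In k a b y ∧ In k c d y := by
  have cl := h.cl
  by_contra! hh
  obtain ⟨z, z1, z2⟩ := Nd.exists_perp_B_ne cl.nd (X := Submodule.span k {a, b, c}) (a := d) fun hd => by
    obtain ⟨α, β, γ, hd⟩ := Submodule.mem_span_triple.1 hd
    exact hh (d - γ • c) (sub_ne_zero.2 (h'.ind γ)) ⟨α, β, by rw [← hd]; abel⟩ ⟨-γ, 1, by module⟩
  simp only [mem_perp_span, Set.mem_insert_iff, Set.mem_singleton_iff, forall_eq_or_imp, forall_eq] at z1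
  have e0 := (h.T4 h').symm.trans (cl.T_iff.2 e)
  exact hh c h'.a0 (h.dep3 (smul_right_injective _ z2 (by
    have := congrArg (fun X => X * ι z - ι z * X) e0
    simp only [nc k S, cl.anti' d z, cl.anti' a z, cl.antim a z, cl.antim b z, cl.antim c z,
      cl.antim d z, z1, zero_smul, zero_sub, sub_self, smul_zero, neg_neg] at this
    simp only
    linear_combination (norm := module) this))) (In.l c d)

theorem sing (hy : In k a b y) (y0 : y ≠ 0) (qy : Q y = 0) : ∃ μ : k, μ ^ 2 + μ + 1 = 0 ∧ (ρ g).1 * ι y = μ • ι y := by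
  obtain ⟨α, β, rfl⟩ := hy
  rw [h.Q_comb] at qy
  by_cases β0 : β = 0
  · simp [β0] at qy
    simp [β0, qy] at y0
  refine ⟨-α / β, by field_simp; linear_combination qy, ?_⟩
  simp only [h.e, map_add, map_smul, nc k S, h.cl.sq, h.cl.ι3, h.qa, h.qb, h.ab, map_sub, one_smul]
  have e1 : -α + β = -α / β * α := by field_simp; linear_combination qy
  have e2 : -α = -α / β * β := by field_simp
  linear_combination (norm := module) e1 • ι a + e2 • ι b

end Pr

theorem quart {X : Type*} [AddCommGroup X] [Module k X] {u : (End k X)ˣ} (e : T u * T u = (2 : k) • T u) :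
    u.1 * (u.1 * (u.1 * u.1)) = (2 : k) • (u.1 * (u.1 * u.1)) - (2 : k) • (u.1 * u.1) + (2 : k) • u.1 - 1 := by
  have := congrArg (fun Y => u.1 * (u.1 * Y)) e
  simp only [T, nc k X] at this
  linear_combination (norm := module) this

theorem quartm {X : Type*} [AddCommGroup X] [Module k X] {u : (End k X)ˣ} (e : T u * T u = (2 : k) • T u)
    (Y : End k X) : u.1 * (u.1 * (u.1 * (u.1 * Y))) = (2 : k) • (u.1 * (u.1 * (u.1 * Y))) -
      (2 : k) • (u.1 * (u.1 * Y)) + (2 : k) • (u.1 * Y) - Y := by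
  simpa only [nc k X] using congrArg (· * Y) (quart e)

end Cfsg.Agent.H9.E4
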