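import Cfsg.Agent.H9.E4.S3
import Cfsg.Agent.H6.S4.B1

/-! Pairs of quadratic elements of order three in `SL_4`: the five types. -/

set_option autoImplicit false
set_option linter.unusedSimpArgs false
set_option linter.unusedSectionVars false
set_option linter.unusedVariables false

namespace Cfsg.Agent.H9.E4

open Module Cfsg.Agent.Orth Cfsg.Agent.H6.L4
open Cfsg.Agent.H6.S4 (nc T NoTv sq_of_T sqm_of_T wa T_two_iff inv_of_T three_eq eq_of_cast T_inv_mul)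

universe u

variable {k V W S : Type*} [Field k] [AddCommGroup V] [Module k V] [FiniteDimensional k V]
  [AddCommGroup W] [Module k W] [FiniteDimensional k W]
  [AddCommGroup S] [Module k S] [FiniteDimensional k S]
  {Q : QuadraticForm k W} {ι : W →ₗ[k] End k S} {ρ : (End k V)ˣ →* (End k S)ˣ}
  {j : End k V →ₗ[k] End k S} {pr : End k S →ₗ[k] End k V} {p : ℕ}
  {G : Type u} [Group G] {P : Subgroup (End k V)ˣ} {π : P →* G} {g g' x : (End k V)ˣ}
  {a b c d e w y z : W}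

theorem exists_om [IsAlgClosed k] : ∃ ω : k, ω ^ 2 + ω + 1 = 0 := by
  obtain ⟨ω, h⟩ := IsAlgClosed.exists_root (k := k) (Polynomial.X ^ 2 + Polynomial.X + 1) (by
    rw [show (Polynomial.X ^ 2 + Polynomial.X + 1 : Polynomial k).degree = 2 by compute_degree!]; decide)
  exact ⟨ω, by simpa using h⟩

theorem unit_vec [IsAlgClosed k] (ha : Q a ≠ 0) : ∃ c : k, c ≠ 0 ∧ Q (c • a) = 1 := by
  obtain ⟨c, hc⟩ := IsAlgClosed.exists_eq_mul_self (Q a)
  have c0 : c ≠ 0 := by rintro rfl; simp [hc] at ha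
  exact ⟨c⁻¹, inv_ne_zero c0, by rw [Q_smul, hc]; field_simp⟩

theorem In.symm (h : In k a b y) : In k b a y := let ⟨α, β, e⟩ := h; ⟨β, α, by rw [e, add_comm]⟩

/-- conformal pairs -/
def DZ (Q : QuadraticForm k W) (a b c d : W) : Prop :=
  B Q a c = B Q b d ∧ B Q b c = -B Q a c - B Q a d

theorem Pr.rad (h : Pr Q ι ρ j pr g a b) (t3 : (3 : k) = 0) (hy : In k a b y) (y0 : y ≠ 0)
    (qy : Q y = 0) : ∃ s : k, a - b = s • y := by
  obtain ⟨α, β, rfl⟩ := hy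
  rw [h.Q_comb] at qy
  obtain rfl : β = -α := by
    have : (α + β) ^ 2 = 0 := by linear_combination qy + α * β * t3
    linear_combination pow_eq_zero_iff two_ne_zero |>.1 this
  have : α ≠ 0 := by rintro rfl; simp at y0
  exact ⟨α⁻¹, by simp [smul_add, smul_smul, this, sub_eq_add_neg]⟩

theorem Pr.fix (h : Pr Q ι ρ j pr g a b) (e : wa ι (ρ g) y = y) : B Q a y = 0 ∧ B Q b y = 0 := by
  rw [h.act] at e
  have := h.zero (α := B Q a y + B Q b y) (β := B Q b y) (by linear_combination (norm := module) -e)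
  exact ⟨by linear_combination this.1 - this.2, this.2⟩

theorem Pr.mv (h : Pr Q ι ρ j pr g a b) (y : W) : In k a b (wa ι (ρ g) y - y) :=
  ⟨-(B Q a y + B Q b y), -B Q b y, by rw [h.act]; module⟩

theorem In.sub (h1 : In k a b y) (h2 : In k a b z) : In k a b (y - z) :=
  let ⟨α, β, e⟩ := h1; let ⟨γ, δ, e'⟩ := h2; ⟨α - γ, β - δ, by rw [e, e']; module⟩

namespace Z

variable [IsAlgClosed k] [Fact p.Prime] [CharP k p] (h : Z p P π Q ι ρ j pr)
include h

theorem exists_pr (hg : X3 P g) : ∃ a b, Pr Q ι ρ j pr g a b := by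
  obtain ⟨ω, hω⟩ := exists_om (k := k)
  obtain ⟨a, b, qa, qb, e⟩ := h.sp.quad g ω hω (h.det g hg.1) hg.2.1
    fun ⟨v, hv⟩ => hg.2.2 (h.tv g hg.1 v hv)
  refine ⟨a, b, h.sp, h.det g hg.1, qa, qb,
    h.sp.sc' ((h.sp.T_pair e qa qb).symm.trans (h.sp.T_iff.2 hg.2.1)), e, ?_⟩
  rintro rfl
  exact hg.2.2 (h.sp.ρ_inj (by rw [e, h.sp.sq, qa]; simp))

theorem t3 (n : NoSh P) (p5 : 5 ≤ p) : (3 : k) ≠ 0 := fun e => by
  have := eq_of_cast (k := k) (p := p) Nat.prime_three (by exact_mod_cast e)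
  omega

theorem sh (hg : g ∈ P) (hx : x ∈ P) (p1 : Pr Q ι ρ j pr g a b) (p2 : Pr Q ι ρ j pr x c d)
    (y0 : y ≠ 0) (qy : Q y = 0) (h1 : In k a b y) (h2 : In k c d y) : x = g ∨ x = g⁻¹ := by
  have cl := h.sp
  rcases h.un with ⟨p5, n⟩ | ⟨p3, s⟩
  · have key : ∀ {g : (End k V)ˣ} {a b : W}, g ∈ P → Pr Q ι ρ j pr g a b → In k a b y →
        (ρ g).1 * ((ρ x).1 * ι y) = ι y → x = g⁻¹ := fun {g a b} hg p1 h1 e => by
      obtain ⟨s, hs⟩ := p1.T_dep p2 y0 h1 h2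
      have e1 : (ρ (g * x)).1 * ι y = ι y := by rw [map_mul, Units.val_mul, mul_assoc, e]
      have e2 : (ρ (g * x))⁻¹.1 * ι y = ι y := by
        conv_lhs => rw [← e1]
        rw [Units.inv_mul_cancel_left]
      have e3 := congrArg (· * ι y) (cl.T_iff.2 hs)
      simp only [T, add_mul, e1, e2, smul_mul_assoc, one_mul] at e3
      obtain rfl : s = 2 := smul_left_injective k (mt cl.ι_eq_zero.1 y0) (by
        simp only [two_smul, e3])
      exact eq_inv_of_mul_eq_one_right (n _ (P.mul_mem hg hx) hs)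
    obtain ⟨μ, m1, e1⟩ := p1.sing h1 y0 qy
    obtain ⟨ν, m2, e2⟩ := p2.sing h2 y0 qy
    rcases mul_eq_zero.1 (show (ν - μ) * (ν * μ - 1) = 0 by
      linear_combination μ * m2 - ν * m1) with m | m
    · left
      rw [sub_eq_zero.1 m, ← e1] at e2
      simpa using key (P.inv_mem hg) p1.inv h1.symm (by rw [e2, map_inv, Units.inv_mul_cancel_left])
    · exact Or.inr (key hg p1 h1 (by
        rw [e2, mul_smul_comm, e1, smul_smul, sub_eq_zero.1 m, one_smul]))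
  · have t3 := three_eq (k := k) p3
    obtain ⟨s1, e1⟩ := p1.rad t3 h1 y0 qy
    obtain ⟨s2, e2⟩ := p2.rad t3 h2 y0 qy
    have m : (-1 : k) = 2 := by linear_combination -t3
    have e : ((ρ g).1 - 1) * ((ρ x).1 - 1) = 0 := by
      have a1 : (ρ g).1 - 1 = -(ι a * ι (a - b)) := by
        simp only [p1.e, map_sub, nc k S, cl.sq, p1.qa]; module
      have a2 : (ρ x).1 - 1 = ι (c - d) * ι d := by
        simp only [p2.e, map_sub, nc k S, cl.sq, p2.qb]; module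
      rw [a1, a2, e1, e2]
      simp only [map_smul, nc k S, cl.sqm, qy]; module
    refine (s g hg x hx (m ▸ p1.hT) (m ▸ p2.hT) p1.ne1 ?_).resolve_left p2.ne1
    have := congrArg pr e
    simp only [sub_mul, mul_sub, map_sub, cl.prm, cl.prρ, one_mul, mul_one, cl.pr1, map_zero] at this ⊢
    exact this

theorem eq_of_plane (hg : g ∈ P) (hx : x ∈ P) (p1 : Pr Q ι ρ j pr g a b) (p2 : Pr Q ι ρ j pr x c d)
    (h1 : In k a b c) (h2 : In k a b d) : x = g ∨ x = g⁻¹ := by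
  obtain ⟨ω, hω⟩ := exists_om (k := k)
  have i : In k c d ((1 : k) • c + (-ω) • d) := ⟨_, _, rfl⟩
  exact h.sh hg hx p1 p2 (fun e => one_ne_zero (p2.zero e).1) (by rw [p2.Q_comb]; linear_combination hω)
    (i.trans h1 h2) i

theorem comm (hg : g ∈ P) (hx : x ∈ P) (p1 : Pr Q ι ρ j pr g a b) (p2 : Pr Q ι ρ j pr x c d)
    (e : g * x = x * g) : (x = g ∨ x = g⁻¹) ∨
      (B Q a c = 0 ∧ B Q a d = 0 ∧ B Q b c = 0 ∧ B Q b d = 0) := by
  have cl := h.sp
  have key : ∀ y, y ≠ 0 → In k a b y → In k c d y → x = g ∨ x = g⁻¹ := fun y y0 h1 h2 => by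
    by_cases qy : Q y = 0
    · exact h.sh hg hx p1 p2 y0 qy h1 h2
    obtain ⟨s, -, qs⟩ := unit_vec qy
    obtain ⟨u, q1⟩ := p1.base (h1.smul s) qs
    obtain ⟨w, q2⟩ := p2.base (h2.smul s) qs
    refine h.eq_of_plane hg hx q1 q2 (In.l _ _) (q1.inv.dep3 (cl.ι_cancel qs ?_)).symm
    have := congrArg (fun g => (ρ g).1) e
    simpa only [map_mul, nc k S, q1.e, q2.e, mul_assoc] using this
  have p3 := p1.conj p2.sp
  rw [← e, mul_inv_cancel_right] at p3
  obtain ⟨s1, s2⟩ := p1.span p3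
  by_cases n1 : wa ι (ρ x) a - a = 0
  · by_cases n2 : wa ι (ρ x) b - b = 0
    · have f1 := p2.fix (sub_eq_zero.1 n1)
      have f2 := p2.fix (sub_eq_zero.1 n2)
      exact Or.inr ⟨B_comm Q a c ▸ f1.1, B_comm Q a d ▸ f1.2, B_comm Q b c ▸ f2.1, B_comm Q b d ▸ f2.2⟩
    · exact Or.inl (key _ n2 (s2.sub (In.r a b)) (p2.mv b))
  · exact Or.inl (key _ n1 (s1.sub (In.l a b)) (p2.mv a))

theorem dz (n : NoSh P) (t3 : (3 : k) ≠ 0) (hg : g ∈ P) (hx : x ∈ P) (p1 : Pr Q ι ρ j pr g a b)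
    (p2 : Pr Q ι ρ j pr x c d) (o : om Q a b c d = 1)
    (e : T (g⁻¹ * x) * T (g⁻¹ * x) = (2 : k) • T (g⁻¹ * x)) : DZ Q a b c d := by
  have cl := h.sp
  have e4 : (g⁻¹ * x) ^ 4 = 1 := n _ (P.pow_mem (P.mul_mem (P.inv_mem hg) hx) 4) (by
    rw [T_two_iff]
    generalize g⁻¹ * x = u at e ⊢
    simp only [pow_succ, pow_zero, nc k V, quart e, quartm e]
    module)
  have e' : T (ρ (g⁻¹ * x)) * T (ρ (g⁻¹ * x)) = (2 : k) • T (ρ (g⁻¹ * x)) := by
    rw [← cl.jT, ← cl.jsq, e, map_smul]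
  have e5 : (ρ (g⁻¹ * x)).1 * T (ρ (g⁻¹ * x)) = T (ρ (g⁻¹ * x)) := by
    have a1 := quart e'
    have a2 := congrArg (fun g => (ρ g).1) e4
    simp only [map_pow, map_one] at a2
    generalize ρ (g⁻¹ * x) = u at a1 a2 ⊢
    simp only [pow_succ, pow_zero, nc k S] at a2
    rw [a2] at a1
    have := congrArg (u⁻¹.1 * ·) a1
    simp only [T, nc k S] at this ⊢
    apply smul_right_injective _ cl.two
    simp only
    linear_combination (norm := module) -this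
  have e6 : (ρ x).1 * T (ρ (g⁻¹ * x)) = (ρ g).1 * T (ρ (g⁻¹ * x)) := by
    conv_rhs => rw [← e5]
    simp only [map_mul, map_inv, nc k S]
  have t1 : LinearMap.trace k S (T (ρ (g⁻¹ * x))) = 8 := by
    rw [p1.inv.T_tr p2, show om Q b a c d = -om Q a b c d by simp only [om]; ring, o]; norm_num
  have t2 : LinearMap.trace k S ((ρ g).1 * T (ρ (g⁻¹ * x))) = -4 := by
    rw [p1.inv.T4 p2, p1.e]
    simp only [nc k S, cl.sqm, p1.qa, p1.qb, one_smul, map_add, cl.tr2, p2.ab]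
    rw [show ι a * (ι b * (ι d * (ι c * (ι a * ι b)))) = (ι a * (ι b * (ι d * ι c))) * (ι a * ι b) by
      simp only [mul_assoc], LinearMap.trace_mul_comm]
    have : ι a * ι b * (ι a * (ι b * (ι d * ι c))) = ι b * (ι a * (ι d * ι c)) := by
      simp only [nc k S, cl.antim b a, cl.sqm, p1.qa, p1.qb, p1.ab, p1.inv.ab]
      module
    rw [this, cl.tr4, p1.inv.ab, p2.inv.ab]
    unfold om at o
    linear_combination -2 * o
  generalize T (ρ (g⁻¹ * x)) = τ at e6 t1 t2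
  have key : ∀ ω : k, ω ^ 2 + ω + 1 = 0 → B Q (b - ω ^ 2 • a) (d - ω ^ 2 • c) = 0 := fun ω hω => by
    have k1 : ∀ {g : (End k V)ˣ} {a b : W}, Pr Q ι ρ j pr g a b →
        ι (b - ω ^ 2 • a) * ((ρ g).1 * τ - ω • τ) = 0 := fun {g a b} p1 => by
      simp only [p1.e, map_sub, map_smul, nc k S, cl.antim b a, cl.sqm, p1.qa, p1.qb, p1.inv.ab]
      linear_combination (norm := module) (-hω) • (ι b * τ) + ((ω - 1) * hω) • (ι a * τ)
    have a1 := k1 p1
    have a2 := k1 p2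
    rw [e6] at a2
    have a3 := cl.antim (b - ω ^ 2 • a) (d - ω ^ 2 • c) ((ρ g).1 * τ - ω • τ)
    rw [a1, a2, mul_zero, mul_zero, sub_zero] at a3
    refine (smul_eq_zero.1 a3.symm).resolve_right fun e => t3 (mul_left_cancel₀ cl.four_ne ?_)
    have := congrArg (LinearMap.trace k S) e
    rw [map_sub, map_smul, t1, t2, map_zero, smul_eq_mul] at this
    linear_combination 16 * hω + (1 + 2 * ω) * this
  obtain ⟨ω, hω⟩ := exists_om (k := k)
  have k1 := key ω hω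
  have k2 := key (-1 - ω) (by linear_combination hω)
  simp only [map_sub, map_smul, LinearMap.sub_apply, LinearMap.smul_apply, smul_eq_mul] at k1 k2
  have w : 2 * ω + 1 ≠ 0 := fun e => t3 (by linear_combination 4 * hω - (2 * ω + 1) * e)
  have k3 : B Q a c + B Q a d + B Q b c = 0 := mul_left_cancel₀ w (by
    linear_combination k1 - k2 + (4 * ω + 2) * B Q a c * hω)
  exact ⟨by linear_combination (1 + ω) * k3 - k1 + (ω * (ω - 1) * B Q a c - B Q a d - B Q b c) * hω,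
    by linear_combination k3⟩

theorem pair (hg : g ∈ P) (hx : x ∈ P) (p1 : Pr Q ι ρ j pr g a b) (p2 : Pr Q ι ρ j pr x c d) :
    (x = g ∨ x = g⁻¹) ∨ (B Q a c = 0 ∧ B Q a d = 0 ∧ B Q b c = 0 ∧ B Q b d = 0) ∨
    (om Q a b c d ^ 2 = 1 ∧ (∃ s : k, (s = 0 ∨ s = 1) ∧ T (g * x) = s • 1) ∧
      ∃ y, y ≠ 0 ∧ In k a b y ∧ In k c d y) ∨
    (om Q a b c d = 0 ∧ Sg Q a b c d = 2 ∧ T (g * x) * T (g * x) = T (g * x) + 1) ∨
    (om Q a b c d ^ 2 = 1 ∧ Sg Q a b c d = 3 ∧ ((3 : k) = 0 ∨ DZ Q a b c d ∨ DZ Q b a c d)) := by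
  rcases h.p3 g x (p1.x3 hg) (p2.x3 hx) with e | e | e | ⟨n, e | e | e⟩
  · exact (h.comm hg hx p1 p2 e).imp_right Or.inl
  · replace e : T (g * x) = (0 : k) • 1 := by simp [e]
    exact Or.inr (Or.inr (Or.inl ⟨by rw [p1.T_scal p2 e]; ring, ⟨0, Or.inl rfl, e⟩, p1.meet p2 e⟩))
  · replace e : T (g * x) = (1 : k) • 1 := by simp [e]
    exact Or.inr (Or.inr (Or.inl ⟨by rw [p1.T_scal p2 e]; ring, ⟨1, Or.inr rfl, e⟩, p1.meet p2 e⟩))
  · obtain ⟨a1, a2⟩ := p1.T_poly h.toSt p2 (s := 1) (t := 1) (by simp [e]) n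
    exact Or.inr (Or.inr (Or.inr (Or.inl ⟨by rw [a1]; ring, by rw [a2]; ring, e⟩)))
  · obtain ⟨a1, a2⟩ := p1.T_poly h.toSt p2 (s := 0) (t := 1) (by simp [e]) n
    refine Or.inr (Or.inr (Or.inr (Or.inr ⟨by rw [a1]; ring, by rw [a2]; ring, ?_⟩)))
    rcases h.un with ⟨p5, ns⟩ | ⟨p3, -⟩
    · refine Or.inr (Or.inl (h.dz ns (h.t3 ns p5) hg hx p1 p2 (by rw [a1]; ring) ?_))
      rw [T_inv_mul p1.hT p2.hT]
      simp only [nc k V, e]; module
    · exact Or.inl (three_eq p3)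
  · obtain ⟨a1, a2⟩ := p1.T_poly h.toSt p2 (s := 2) (t := 0) (by simp [e]) n
    refine Or.inr (Or.inr (Or.inr (Or.inr ⟨by rw [a1]; ring, by rw [a2]; ring, ?_⟩)))
    rcases h.un with ⟨p5, ns⟩ | ⟨p3, -⟩
    · refine Or.inr (Or.inr (h.dz ns (h.t3 ns p5) (P.inv_mem hg) hx p1.inv p2 ?_ (by rwa [inv_inv])))
      unfold om at a1 ⊢
      linear_combination -a1
    · exact Or.inl (three_eq p3)

end Z

end Cfsg.Agent.H9.E4
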