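import Cfsg.Agent.H9.E4.S4

/-! Existence of a root system of type `A₃`. -/

set_option autoImplicit false
set_option linter.unusedSimpArgs false
set_option linter.unusedSectionVars false
set_option linter.unusedVariables false

namespace Cfsg.Agent.H9.E4

open Module Cfsg.Agent.Orth Cfsg.Agent.H6.L4
open Cfsg.Agent.H6.S4 (nc T NoTv sq_of_T sqm_of_T wa T_two_iff inv_of_T three_eq eq_of_cast T_inv_mul)

universe u

variable {k V W S : Type*} [Field k] [AddCommGroup V] [Module k V] [FiniteDimensional k V]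
  [AddCommGroup W] [Module k W] [FiniteDimensional k W]
  [AddCommGroup S] [Module k S] [FiniteDimensional k S]
  {Q : QuadraticForm k W} {ι : W →ₗ[k] End k S} {ρ : (End k V)ˣ →* (End k S)ˣ}
  {j : End k V →ₗ[k] End k S} {pr : End k S →ₗ[k] End k V} {p : ℕ}
  {G : Type u} [Group G] {P : Subgroup (End k V)ˣ} {π : P →* G} {g g' x : (End k V)ˣ}
  {a b c d e o u v w y z : W}

/-- aligned pairs of singular vectors -/
def Al (Q : QuadraticForm k W) (x y : W × W) : Prop := B Q x.1 y.1 = 0 ∧ B Q x.2 y.2 = 0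

/-- the rotation attached to a pair of singular vectors -/
def rot (Q : QuadraticForm k W) (s s' : k) (x : W × W) (w : W) : W :=
  w + (s * B Q w x.2) • x.1 + (s' * B Q w x.1) • x.2

theorem orient {X : Set (W × W)} (sw : ∀ x ∈ X, x.swap ∈ X) (self : ∀ x ∈ X, Al Q x x ∧ B Q x.1 x.2 ≠ 0)
    (al : ∀ x ∈ X, ∀ y ∈ X, Al Q x y ∨ Al Q x y.swap)
    (cl : ∀ y ∈ X, ∃ s s', s' ≠ 0 ∧ ∀ z ∈ X, (rot Q s s' y z.1, rot Q s s' y z.2) ∈ X)
    {x : W × W} (hx : x ∈ X) : ∃ R : Submodule k W, R ≠ ⊥ ∧ R ≠ ⊤ ∧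
      ∀ y ∈ X, ∀ s s', ∀ w ∈ R, rot Q s s' y w ∈ R := by
  have tri : ∀ x ∈ X, ∀ y ∈ X, ∀ z ∈ X, Al Q x y → B Q x.1 y.2 ≠ 0 → Al Q y z → B Q y.1 z.2 ≠ 0 →
      Al Q x z := fun x hx y hy z hz h1 n1 h2 n2 => by
    obtain ⟨s, s', s0, hs⟩ := cl y hy
    have e1 : B Q x.1 (rot Q s s' y z.1) = B Q x.1 z.1 := by simp [rot, h1.1, B_comm Q z.1, h2.1]
    have e2 : B Q x.1 (rot Q s s' y z.2) = B Q x.1 z.2 + s' * B Q y.1 z.2 * B Q x.1 y.2 := by
      simp [rot, h1.1, B_comm Q z.2]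
    have e3 : B Q x.2 (rot Q s s' y z.2) = B Q x.2 z.2 := by simp [rot, h1.2, B_comm Q z.2, h2.2]
    refine (al x hx z hz).elim id fun h3 => (al x hx _ (hs z hz)).elim
      (fun h4 => ⟨e1 ▸ h4.1, e3 ▸ h4.2⟩) fun h4 => absurd (e2.symm.trans h4.1) ?_
    simp [show B Q x.1 z.2 = 0 from h3.1, s0, n1, n2]
  let A : Set (W × W) := {z | z ∈ X ∧ ∃ y ∈ X, Al Q x y ∧ B Q x.1 y.2 ≠ 0 ∧ Al Q y z ∧ B Q y.1 z.2 ≠ 0}
  have step : ∀ z ∈ A, ∀ w ∈ X, Al Q z w → B Q z.1 w.2 ≠ 0 → w ∈ A := by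
    rintro z ⟨hz, y, hy, h1, n1, h2, n2⟩ w hw h3 n3
    have h4 := tri x hx y hy z hz h1 n1 h2 n2
    have h5 := tri y hy z hz w hw h2 n2 h3 n3
    by_cases n4 : B Q x.1 z.2 = 0
    swap
    · exact ⟨hw, z, hz, h4, n4, h3, n3⟩
    by_cases n5 : B Q y.1 w.2 = 0
    swap
    · exact ⟨hw, y, hy, h1, n1, h5, n5⟩
    obtain ⟨s, s', s0, hs⟩ := cl y hy
    refine ⟨hw, _, hs z hz, ⟨?_, ?_⟩, ?_, ⟨?_, ?_⟩, ?_⟩ <;>
      simp [rot, h1.1, h1.2, h2.1, h2.2, h3.1, h3.2, h4.1, h4.2, h5.1, h5.2, B_comm Q z.1 y.1,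
        B_comm Q z.2 y.2, B_comm Q z.2 y.1, n1, n2, n3, n4, n5, s0]
  have xA : x ∈ A := ⟨hx, x, hx, (self x hx).1, (self x hx).2, (self x hx).1, (self x hx).2⟩
  have x1 : x.1 ∈ Submodule.span k (Prod.fst '' A) := Submodule.subset_span ⟨x, xA, rfl⟩
  refine ⟨Submodule.span k (Prod.fst '' A), fun e => (self x hx).2 (by
    rw [e, Submodule.mem_bot] at x1; simp [x1]), fun e => (self x hx).2 ?_, fun y hy s s' w hw => ?_⟩
  · have : Submodule.span k (Prod.fst '' A) ≤ LinearMap.ker (B Q x.1) := Submodule.span_le.2 (by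
      rintro _ ⟨z, ⟨hz, y, hy, h1, n1, h2, n2⟩, rfl⟩
      exact (tri x hx y hy z hz h1 n1 h2 n2).1)
    exact this (e ▸ Submodule.mem_top)
  · induction hw using Submodule.span_induction with
    | mem w hw =>
      obtain ⟨z, hz, rfl⟩ := hw
      have key : ∀ y ∈ X, Al Q z y → ∀ s : k, (s * B Q z.1 y.2) • y.1 ∈ Submodule.span k (Prod.fst '' A) :=
        fun y hy h s => by
        by_cases n : B Q z.1 y.2 = 0
        · simp [n]
        · exact Submodule.smul_mem _ _ (Submodule.subset_span ⟨y, step z hz y hy h n, rfl⟩)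
      have z1 : z.1 ∈ Submodule.span k (Prod.fst '' A) := Submodule.subset_span ⟨z, hz, rfl⟩
      rcases al z hz.1 y hy with h | h
      · simpa [rot, h.1] using add_mem z1 (key y hy h s)
      · simpa [rot, show B Q z.1 y.2 = 0 from h.1] using add_mem z1 (key _ (sw y hy) h s')
    | zero => simp [rot]
    | add a b _ _ ha hb => convert add_mem ha hb using 1; simp [rot]; module
    | smul c a _ ha => convert Submodule.smul_mem _ c ha using 1; simp [rot]; module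

/-- the roots in the class of `o` -/
def Ph (Q : QuadraticForm k W) (ι : W →ₗ[k] End k S) (ρ : (End k V)ˣ →* (End k S)ˣ)
    (P : Subgroup (End k V)ˣ) (o u : W) : Prop :=
  Q o = 1 ∧ Q u = 1 ∧ ∃ g ∈ P, (ρ g).1 = ι o * ι u

theorem Ph.un (hu : Ph Q ι ρ P o u) : Q u = 1 := hu.2.1

theorem Ph.self (h : Sp Q ι ρ j pr) (ho : Q o = 1) : Ph Q ι ρ P o o :=
  ⟨ho, ho, 1, P.one_mem, by simp [h.sq, ho]⟩

theorem Ph.pair (h : Sp Q ι ρ j pr) (hu : Ph Q ι ρ P o u) (hv : Ph Q ι ρ P o v) :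
    ∃ g ∈ P, (ρ g).1 = ι u * ι v :=
  let ⟨ho, a, g, hg, e⟩ := hu
  let ⟨_, b, g', hg', e'⟩ := hv
  ⟨g⁻¹ * g', P.mul_mem (P.inv_mem hg) hg', by
    simp only [map_mul, map_inv, nc k S, h.inv_pair e ho a, e', h.sqm, ho, one_smul]⟩

theorem Ph.ext (h : Sp Q ι ρ j pr) (hu : Ph Q ι ρ P o u) (hv : Q v = 1) (hg : g ∈ P)
    (e : (ρ g).1 = ι u * ι v) : Ph Q ι ρ P o v :=
  let ⟨ho, a, g', hg', e'⟩ := hu
  ⟨ho, hv, g' * g, P.mul_mem hg' hg, by simp only [map_mul, nc k S, e, e', h.sqm, a, one_smul]⟩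

theorem Ph.neg (h : Sp Q ι ρ j pr) (hs : St P π) (hu : Ph Q ι ρ P o u) : Ph Q ι ρ P o (-u) :=
  let ⟨ho, a, g, hg, e⟩ := hu
  ⟨ho, by simpa using a, -1 * g, P.mul_mem hs.neg1 hg, by
    rw [map_mul, Units.val_mul, h.neg, e]; simp⟩

theorem Ph.refl (h : Sp Q ι ρ j pr) (hu : Ph Q ι ρ P o u) (hv : Ph Q ι ρ P o v) :
    Ph Q ι ρ P o (B Q u v • u - v) := by
  obtain ⟨g, hg, e⟩ := hv.pair h hu
  refine hu.ext h ?_ hg ?_
  · rw [Q_sub, Q_smul, hu.un, hv.un, map_smul, LinearMap.smul_apply, smul_eq_mul]; ring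
  · rw [e, h.anti' v u]
    simp only [map_sub, map_smul, nc k S, h.sq, hu.un, B_comm Q v u, one_smul]

theorem Ph.add (h : Sp Q ι ρ j pr) (hs : St P π) (hu : Ph Q ι ρ P o u) (hv : Ph Q ι ρ P o v)
    (e : B Q u v = -1) : Ph Q ι ρ P o (u + v) := by
  simpa [e, add_comm] using (hu.refl h hv).neg h hs

theorem Ph.pres (h : Sp Q ι ρ j pr) (hs : St P π) (hu : Ph Q ι ρ P o u) (hv : Ph Q ι ρ P o v)
    (e : B Q u v = -1) (ne : u ≠ v) : ∃ g ∈ P, Pr Q ι ρ j pr g u v :=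
  let ⟨g, hg, e'⟩ := hu.pair h hv
  ⟨g, hg, h, hs.det g hg, hu.un, hv.un, e, e', ne⟩

theorem Pr.act_a (h : Pr Q ι ρ j pr g a b) : wa ι (ρ g) a = b := by
  rw [h.act, B_self, h.qa, h.inv.ab]; module

theorem Pr.act_b (h : Pr Q ι ρ j pr g a b) : wa ι (ρ g) b = -a - b := by
  rw [h.act, B_self, h.qb, h.ab]; module

/-- a chain of type `A₃` -/
def A3 (Q : QuadraticForm k W) (ι : W →ₗ[k] End k S) (ρ : (End k V)ˣ →* (End k S)ˣ)
    (P : Subgroup (End k V)ˣ) : Prop := ∃ o a b c, Ph Q ι ρ P o a ∧ Ph Q ι ρ P o b ∧ Ph Q ι ρ P o c ∧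
  B Q a b = -1 ∧ B Q b c = -1 ∧ B Q a c = 0

theorem T_nat {X : Type*} [AddCommGroup X] [Module k X] [FiniteDimensional k X] {g x : (End k X)ˣ} (h1 : T g = (-1 : k) • 1)
    (h2 : T x = (-1 : k) • 1) :
    T (g * (x * g * x⁻¹)) = T (g * x) + 1 - T (g * x) * T (g * x) := by
  simp only [T, nc k X, inv_of_T h1, inv_of_T h2, sq_of_T h1, sq_of_T h2, sqm_of_T h1, sqm_of_T h2]
  module

namespace Z

variable [IsAlgClosed k] [Fact p.Prime] [CharP k p] (h : Z p P π Q ι ρ j pr)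
include h

theorem a3_meet (hg : g ∈ P) (hx : x ∈ P) (p1 : Pr Q ι ρ j pr g a b) (p2 : Pr Q ι ρ j pr x c d)
    {s : k} (hs : s = 0 ∨ s = 1) (e : T (g * x) = s • 1) : A3 Q ι ρ P := by
  have cl := h.sp
  have two := h.two
  obtain ⟨y, y0, h1, h2⟩ := p1.meet p2 e
  by_cases qy : Q y = 0
  · exfalso
    rcases h.sh hg hx p1 p2 y0 qy h1 h2 with rfl | rfl
    · have := p1.T_scal p1 e
      simp only [om, B_self, p1.qa, p1.qb, p1.ab, p1.inv.ab] at this
      rcases hs with rfl | rfl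
      exacts [two (by linear_combination this), cl.four_ne (by linear_combination this)]
    · rw [mul_inv_cancel, H6.S4.T_one] at e
      have := h.sc' e
      rcases hs with rfl | rfl
      exacts [two this, one_ne_zero (α := k) (by linear_combination this)]
  obtain ⟨t, -, qs⟩ := unit_vec qy
  obtain ⟨u, q1⟩ := p1.base (h1.smul t) qs
  obtain ⟨w, q2⟩ := p2.base (h2.smul t) qs
  generalize t • y = y at qs q1 q2
  have hy : Ph Q ι ρ P y y := Ph.self cl qs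
  have hu := hy.ext cl q1.qb hg q1.e
  have hw := hy.ext cl q2.qb hx q2.e
  have := q1.T_scal q2 e
  simp only [om, B_self, qs, q1.ab, q1.inv.ab, q2.ab] at this
  rcases hs with rfl | rfl
  · refine ⟨y, -(y + u), y, w, (hy.add cl h.toSt hu q1.ab).neg cl h.toSt, hy, hw, ?_, q2.ab, ?_⟩
    · simp [B_self, qs, q1.inv.ab]; ring
    · simp only [map_neg, map_add, LinearMap.neg_apply, LinearMap.add_apply, q2.ab]
      exact mul_left_cancel₀ two (by linear_combination -this)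
  · exact ⟨y, u, y, w, hu, hy, hw, q1.inv.ab, q2.ab, mul_left_cancel₀ two (by linear_combination this)⟩

theorem a3 (hg : X3 P g) : A3 Q ι ρ P := by
  have cl := h.sp
  by_contra n
  have key : ∀ {g x : (End k V)ˣ} {a b c d : W}, g ∈ P → x ∈ P → Pr Q ι ρ j pr g a b →
      Pr Q ι ρ j pr x c d → (x = g ∨ x = g⁻¹) ∨ (B Q a c = 0 ∧ B Q a d = 0 ∧ B Q b c = 0 ∧ B Q b d = 0) ∨
      (Sg Q a b c d = 3 ∧ ((3 : k) = 0 ∨ DZ Q a b c d ∨ DZ Q b a c d)) := fun {g x a b c d} hg hx p1 p2 => by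
    rcases h.pair hg hx p1 p2 with e | e | ⟨-, ⟨s, hs, e⟩, -⟩ | ⟨-, -, e⟩ | e
    · exact Or.inl e
    · exact Or.inr (Or.inl e)
    · exact (n (h.a3_meet hg hx p1 p2 hs e)).elim
    · exact (n (h.a3_meet hg (P.mul_mem (P.mul_mem hx hg) (P.inv_mem hx)) p1 (p1.conj p2.sp)
        (Or.inl rfl) (by rw [T_nat p1.hT p2.hT, e]; simp))).elim
    · exact Or.inr (Or.inr e.2)
  obtain ⟨a, b, p0⟩ := h.exists_pr hg
  by_cases t3 : (3 : k) = 0
  · let R := Submodule.span k {w | ∃ g ∈ P, ∃ a b, Pr Q ι ρ j pr g a b ∧ w = a - b}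
    have m : a - b ∈ R := Submodule.subset_span ⟨g, hg.1, a, b, p0, rfl⟩
    rcases cl.irrW h.toSt R (fun x hx w hw => (Submodule.span_le (p := R.comap (wa ι (ρ x)))).2 (by
      rintro _ ⟨g, hg, a, b, p1, rfl⟩
      exact Submodule.subset_span ⟨_, P.mul_mem (P.mul_mem hx hg) (P.inv_mem hx), _, _,
        p1.conj (h.det x hx), map_sub ..⟩) hw) with e | e
    · exact p0.ne (sub_eq_zero.1 (by rwa [e] at m))
    have : R ≤ LinearMap.ker (B Q (a - b)) := Submodule.span_le.2 (by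
      rintro _ ⟨x, hx, c, d, p2, rfl⟩
      have i : ∀ y, In k a b y → B Q (a - b) y = 0 := by
        rintro _ ⟨α, β, rfl⟩
        simp [B_self, p0.qa, p0.qb, p0.ab, p0.inv.ab]
        linear_combination (α - β) * t3
      change B Q (a - b) (c - d) = 0
      rcases key hg.1 hx p0 p2 with (rfl | rfl) | e | ⟨e, -⟩
      · exact i _ ((p0.span p2).1.sub (p0.span p2).2)
      · exact i _ ((p0.inv.span p2).1.sub (p0.inv.span p2).2).symm
      · simp [e]
      · simp only [map_sub, LinearMap.sub_apply]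
        simp only [Sg, nr] at e
        apply pow_eq_zero_iff two_ne_zero |>.1
        apply mul_left_cancel₀ h.two
        linear_combination e + (1 - 2 * B Q a c * B Q a d - 2 * B Q a c * B Q b c + B Q a c * B Q b d +
          B Q a d * B Q b c - 2 * B Q a d * B Q b d - 2 * B Q b c * B Q b d) * t3)
    exact p0.ne (sub_eq_zero.1 (cl.nd _ fun y => by
      rw [B_comm]; exact this (e ▸ Submodule.mem_top)))
  obtain ⟨ω, hω⟩ := exists_om (k := k)
  have w0 : ω ≠ 0 := by rintro rfl; simp at hω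
  let X : Set (W × W) := {z | ∃ g ∈ P, ∃ a b, Pr Q ι ρ j pr g a b ∧ z = (a - ω • b, b - ω • a)}
  have dz : ∀ {a b c d : W}, DZ Q a b c d → Al Q (a - ω • b, b - ω • a) (c - ω • d, d - ω • c) :=
    fun {a b c d} ⟨e1, e2⟩ => by
    simp only [Al, map_sub, map_smul, LinearMap.sub_apply, LinearMap.smul_apply, smul_eq_mul, e2, ← e1]
    constructor <;> linear_combination B Q a c * hω
  have dz' : ∀ {g : (End k V)ˣ} {a b c d : W}, Pr Q ι ρ j pr g a b → Pr Q ι ρ j pr g c d → DZ Q a b c d :=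
    fun {g a b c d} p1 p2 => by
    have e2 := cl.b_wa p1.sp a c
    have e3 := cl.b_wa p1.sp b c
    rw [p2.act_a, p1.act_a] at e2
    rw [p2.act_a, p1.act_b] at e3
    simp only [map_sub, map_neg, LinearMap.sub_apply, LinearMap.neg_apply] at e3
    exact ⟨e2.symm, by linear_combination -e3 - e2⟩
  have act : ∀ {g : (End k V)ˣ} {a b : W}, Pr Q ι ρ j pr g a b → ∀ w, wa ι (ρ g) w =
      rot Q ((ω ^ 2 - 1) / 3) ((ω ^ 2 - ω) / 3) (a - ω • b, b - ω • a) w := fun {g a b} p1 w => by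
    rw [p1.act, rot]
    simp only [map_sub, map_smul, smul_eq_mul, B_comm Q w, LinearMap.sub_apply, LinearMap.smul_apply]
    have e1 : (ω ^ 2 - 1) / 3 * 3 = ω ^ 2 - 1 := by field_simp
    have e2 : (ω ^ 2 - ω) / 3 * 3 = ω ^ 2 - ω := by field_simp
    generalize (ω ^ 2 - 1) / 3 = s at e1
    generalize (ω ^ 2 - ω) / 3 = s' at e2
    have f1 : ω * (s + s') = 1 := mul_left_cancel₀ t3 (by
      linear_combination ω * e1 + ω * e2 + (2 * ω - 3) * hω)
    have f2 : s + ω ^ 2 * s' = -1 := mul_left_cancel₀ t3 (by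
      linear_combination e1 + ω ^ 2 * e2 + (ω ^ 2 - 2 * ω + 2) * hω)
    have f3 : ω ^ 2 * s + s' = 0 := mul_left_cancel₀ t3 (by
      linear_combination ω ^ 2 * e1 + e2 + ω * (ω - 1) * hω)
    linear_combination (norm := module) (B Q a w * f1 - B Q b w * f2) • a + (B Q b w * f1 - B Q a w * f3) • b
  obtain ⟨R, r1, r2, r3⟩ := orient (Q := Q) (X := X) (x := (a - ω • b, b - ω • a))
    (by rintro _ ⟨g, hg, a, b, p1, rfl⟩; exact ⟨_, P.inv_mem hg, b, a, p1.inv, rfl⟩)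
    (by
      rintro _ ⟨g, hg, a, b, p1, rfl⟩
      refine ⟨dz (dz' p1 p1), fun e => mul_ne_zero t3 w0 ?_⟩
      simp [B_self, p1.qa, p1.qb, p1.ab, p1.inv.ab] at e
      linear_combination -e - hω)
    (by
      rintro _ ⟨g, hg, a, b, p1, rfl⟩ _ ⟨x, hx, c, d, p2, rfl⟩
      rcases key hg hx p1 p2 with (rfl | rfl) | e | ⟨-, e | e | e⟩
      · exact Or.inl (dz (dz' p1 p2))
      · exact Or.inr (dz (dz' p1 (by simpa using p2.inv)))
      · exact Or.inl (dz (by simp [DZ, e]))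
      · exact (t3 e).elim
      · exact Or.inl (dz e)
      · exact Or.inr (dz e).symm)
    (by
      rintro _ ⟨x, hx, c, d, p2, rfl⟩
      refine ⟨(ω ^ 2 - 1) / 3, (ω ^ 2 - ω) / 3, div_ne_zero (fun e => mul_ne_zero t3 w0 ?_) t3, ?_⟩
      · linear_combination ω * hω - (ω + 2) * e
      rintro _ ⟨g, hg, a, b, p1, rfl⟩
      exact ⟨_, P.mul_mem (P.mul_mem hx hg) (P.inv_mem hx), _, _, p1.conj p2.sp, by
        simp only [← act p2, map_sub, map_smul]⟩)
    ⟨g, hg.1, a, b, p0, rfl⟩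
  refine (cl.irrWX h.toSt (X := {x | X3 P x}) (fun x hx => hx.1) (fun g hg x hx => X3.conj hx hg) hg
    (hg.nsc h.toSt) R fun x hx w hw => ?_).elim r1 r2
  obtain ⟨c, d, p2⟩ := h.exists_pr hx
  rw [act p2]
  exact r3 _ ⟨x, hx.1, c, d, p2, rfl⟩ _ _ w hw

end Z

end Cfsg.Agent.H9.E4
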