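import Cfsg.Agent.H9.E4.S5
import Cfsg.Agent.H9.E4.I5

/-! The invariant root system. -/

set_option autoImplicit false
set_option linter.unusedSimpArgs false
set_option linter.unusedSectionVars false
set_option linter.unusedVariables false

namespace Cfsg.Agent.H9.E4

open Module Cfsg.Agent.Orth Cfsg.Agent.H6.L4
open Cfsg.Agent.H6.S4 (nc T NoTv sq_of_T sqm_of_T wa T_two_iff inv_of_T three_eq eq_of_cast T_inv_mul
  sq_one)

universe u

variable {k V W S : Type*} [Field k] [AddCommGroup V] [Module k V] [FiniteDimensional k V]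
  [AddCommGroup W] [Module k W] [FiniteDimensional k W]
  [AddCommGroup S] [Module k S] [FiniteDimensional k S]
  {Q : QuadraticForm k W} {ι : W →ₗ[k] End k S} {ρ : (End k V)ˣ →* (End k S)ˣ}
  {j : End k V →ₗ[k] End k S} {pr : End k S →ₗ[k] End k V} {p : ℕ}
  {G : Type u} [Group G] {P : Subgroup (End k V)ˣ} {π : P →* G} {g g' x : (End k V)ˣ}
  {a b c d e o u v w y z : W}

/-- the types of a triangle with vertices `0, (s, t), (s', t')` -/
def Ty (M : Prop) (s t s' t' : k) : Prop :=
  ((s * t' - t * s') ^ 2 = 1 ∧ (M ∨ (nr s t + nr s' t' + nr (s - s') (t - t') = 3 ∧ ((3 : k) = 0 ∨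
    (nr s t = nr s' t' ∧ nr s t = nr (s - s') (t - t')))))) ∨
  (s * t' - t * s' = 0 ∧ nr s t + nr s' t' + nr (s - s') (t - t') = 2)

theorem para (two : (2 : k) ≠ 0) {M M' : Prop} {s t s' t' : k} (h : Ty M s t s' t')
    (h' : Ty M' (-s) (-t) s' t') (n : (s * t' - t * s') ^ 2 = 1) : M ∨ M' := by
  have n0 : s * t' - t * s' ≠ 0 := fun e => by simp [e] at n
  rcases h with ⟨-, m | ⟨a, a'⟩⟩ | h
  · exact Or.inl m
  swap
  · exact (n0 h.1).elim
  rcases h' with ⟨-, m | ⟨b, b'⟩⟩ | h'
  · exact Or.inr m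
  swap
  · exact (n0 (by linear_combination -h'.1)).elim
  exfalso
  simp only [nr] at a a' b b'
  by_cases t3 : (3 : k) = 0
  · have e1 : s - t + (s' - t') = 0 := pow_eq_zero_iff two_ne_zero |>.1 (mul_left_cancel₀ two (by
      linear_combination a + (1 - 2 * s * t + 2 * s * s' - s * t' - t * s' + 2 * t * t' - 2 * s' * t') * t3))
    have e2 : s - t - (s' - t') = 0 := pow_eq_zero_iff two_ne_zero |>.1 (mul_left_cancel₀ two (by
      linear_combination b + (1 - 2 * s * t - 2 * s * s' + s * t' + t * s' - 2 * t * t' - 2 * s' * t') * t3))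
    exact n0 (mul_left_cancel₀ two (by linear_combination (t' - t) * e1 + (t' + t) * e2))
  obtain ⟨a1, a2⟩ := a'.resolve_left t3
  obtain ⟨b1, b2⟩ := b'.resolve_left t3
  exact t3 (mul_left_cancel₀ two (by linear_combination -2 * a + 4 * a1 - 5 * a2 - 3 * b2))

theorem prop2 {s t s' t' : k} (n : ¬ (s = 0 ∧ t = 0)) (e : s * t' - t * s' = 0) :
    ∃ x, s' = x * s ∧ t' = x * t := by
  by_cases s0 : s = 0
  · have t0 : t ≠ 0 := fun e => n ⟨s0, e⟩
    exact ⟨t' / t, mul_left_cancel₀ t0 (by rw [s0] at e ⊢; linear_combination -e), by field_simp⟩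
  · exact ⟨s' / s, by field_simp, by field_simp; linear_combination e⟩

theorem Ty.zero {M : Prop} {s t s' t' : k} (h : Ty M s t s' t') (e : s * t' - t * s' = 0) :
    nr s t + nr s' t' + nr (s - s') (t - t') = 2 :=
  h.elim (fun h => by simp [e] at h) fun h => h.2

theorem Ty.ar {M : Prop} {s t s' t' : k} (h : Ty M s t s' t') :
    s * t' - t * s' = 0 ∨ (s * t' - t * s') ^ 2 = 1 := h.elim (fun h => Or.inr h.1) fun h => Or.inl h.1

theorem Ty.mono {M M' : Prop} {s t s' t' : k} (h : Ty M s t s' t') (f : M → M') : Ty M' s t s' t' :=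
  h.imp_left fun h => ⟨h.1, h.2.imp_left f⟩

section
variable {s t : Fin 4 → k} {M : Fin 4 → Fin 4 → Fin 4 → Prop} (two : (2 : k) ≠ 0)
  (h : ∀ i j l, i ≠ j → i ≠ l → j ≠ l → Ty (M i j l) (s j - s i) (t j - t i) (s l - s i) (t l - t i))
  (n : ∀ i j, i ≠ j → ¬ (s j - s i = 0 ∧ t j - t i = 0))
include two h n

theorem two0 {i j l m : Fin 4} (ij : i ≠ j) (il : i ≠ l) (im : i ≠ m) (jl : j ≠ l) (jm : j ≠ m)
    (lm : l ≠ m) (e1 : (s j - s i) * (t l - t i) - (t j - t i) * (s l - s i) = 0)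
    (e2 : (s j - s i) * (t m - t i) - (t j - t i) * (s m - s i) = 0) : False := by
  obtain ⟨x, x1, x2⟩ := prop2 (n i j ij) e1
  obtain ⟨y, y1, y2⟩ := prop2 (n i j ij) e2
  have a1 := (h i j l ij il jl).zero e1
  have a2 := (h i j m ij im jm).zero e2
  have a3 := (h i l m il im lm).zero (by rw [x1, x2, y1, y2]; ring)
  have n1 := n l m lm
  have n2 := n j m jm
  have n3 := n i m im
  rw [← sub_sub_sub_cancel_right (s m) _ (s i), ← sub_sub_sub_cancel_right (t m) _ (t i)] at n1 n2
  rw [x1, x2] at *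
  rw [y1, y2] at *
  generalize s j - s i = a, t j - t i = b at *
  simp only [nr] at a1 a2 a3
  have r : 2 * (a ^ 2 + a * b + b ^ 2) ≠ 0 := mul_ne_zero two fun e => two (by
    linear_combination (1 + x ^ 2 + (1 - x) ^ 2) * e - a1)
  have xy : x - y ≠ 0 := fun e => n1 ⟨by linear_combination -a * e, by linear_combination -b * e⟩
  have y1 : 1 - y ≠ 0 := fun e => n2 ⟨by linear_combination -a * e, by linear_combination -b * e⟩
  have c1 : x + y - 1 = 0 := mul_left_cancel₀ (mul_ne_zero r xy) (by linear_combination a1 - a2)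
  have c2 : 1 + y - x = 0 := mul_left_cancel₀ (mul_ne_zero r y1) (by linear_combination a1 - a3)
  have : y = 0 := mul_left_cancel₀ two (by linear_combination c1 + c2)
  exact n3 (by simp [this])

theorem one0 {i j l m : Fin 4} (ij : i ≠ j) (il : i ≠ l) (jl : j ≠ l)
    (e : (s j - s i) * (t l - t i) - (t j - t i) * (s l - s i) = 0)
    (e1 : ((s j - s m) * (t l - t m) - (t j - t m) * (s l - s m)) ^ 2 = 1)
    (e2 : ((s l - s m) * (t i - t m) - (t l - t m) * (s i - s m)) ^ 2 = 1)
    (e3 : ((s i - s m) * (t j - t m) - (t i - t m) * (s j - s m)) ^ 2 = 1) : False := by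
  have a := (h i j l ij il jl).zero e
  simp only [nr] at a
  have v1 : ∀ f : Fin 4 → k, f = s ∨ f = t →
      ((s j - s m) * (t l - t m) - (t j - t m) * (s l - s m)) * (f i - f m) +
      ((s l - s m) * (t i - t m) - (t l - t m) * (s i - s m)) * (f j - f m) +
      ((s i - s m) * (t j - t m) - (t i - t m) * (s j - s m)) * (f l - f m) = 0 := by
    rintro f (rfl | rfl) <;> ring
  have v2 : ((s j - s m) * (t l - t m) - (t j - t m) * (s l - s m)) +
      ((s l - s m) * (t i - t m) - (t l - t m) * (s i - s m)) +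
      ((s i - s m) * (t j - t m) - (t i - t m) * (s j - s m)) = 0 := by linear_combination e
  have w1 := v1 s (Or.inl rfl)
  have w2 := v1 t (Or.inr rfl)
  generalize (s j - s m) * (t l - t m) - (t j - t m) * (s l - s m) = x at *
  generalize (s l - s m) * (t i - t m) - (t l - t m) * (s i - s m) = y at *
  generalize (s i - s m) * (t j - t m) - (t i - t m) * (s j - s m) = z at *
  obtain rfl : z = -x - y := by linear_combination v2
  have c : 2 * (x * y) = -1 := by linear_combination e3 - e1 - e2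
  have t3 : (3 : k) = 0 := by linear_combination (2 * (x * y) - 1) * c - 4 * y ^ 2 * e1 - 4 * e2
  obtain rfl : x = y := by linear_combination y * e1 + x * c - x * x * y * t3
  have x0 : x ≠ 0 := by rintro rfl; simp at e1
  have u1 : s i + s j + s l = 0 := mul_left_cancel₀ x0 (by linear_combination w1 + x * s l * t3)
  have u2 : t i + t j + t l = 0 := mul_left_cancel₀ x0 (by linear_combination w2 + x * t l * t3)
  obtain e4 : s l = -s i - s j := by linear_combination u1
  obtain e5 : t l = -t i - t j := by linear_combination u2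
  rw [e4, e5] at a
  exact two (by
    linear_combination -a + (2 * (s i ^ 2 + s i * s j + s j ^ 2) + 2 * (t i ^ 2 + t i * t j + t j ^ 2) +
      2 * s i * t i + s i * t j + s j * t i + 2 * s j * t j) * t3)

theorem para4 {i j l m : Fin 4} (ij : i ≠ j) (il : i ≠ l) (im : i ≠ m) (jl : j ≠ l) (jm : j ≠ m)
    (lm : l ≠ m) (e : ((s j - s i) * (t l - t i) - (t j - t i) * (s l - s i)) ^ 2 = 1)
    (e1 : s i + s m = s j + s l) (e2 : t i + t m = t j + t l) :
    ∃ i j l m, i ≠ j ∧ i ≠ l ∧ i ≠ m ∧ j ≠ l ∧ j ≠ m ∧ l ≠ m ∧ M i j l ∧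
      s i + s m = s j + s l ∧ t i + t m = t j + t l := by
  have a := h j i m ij.symm jm im
  rw [show s m - s j = s l - s i by linear_combination e1, show t m - t j = t l - t i by
    linear_combination e2, ← neg_sub (s j), ← neg_sub (t j)] at a
  rcases para two (h i j l ij il jl) a e with f | f
  · exact ⟨i, j, l, m, ij, il, im, jl, jm, lm, f, e1, e2⟩
  · exact ⟨j, i, m, l, ij.symm, jm, jl, im, il, lm.symm, f, e1.symm, e2.symm⟩

theorem four_pts : ∃ i j l m, i ≠ j ∧ i ≠ l ∧ i ≠ m ∧ j ≠ l ∧ j ≠ m ∧ l ≠ m ∧ M i j l ∧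
    s i + s m = s j + s l ∧ t i + t m = t j + t l := by
  have a0 := (h 1 2 3 (by decide) (by decide) (by decide)).ar
  have a1 := (h 0 2 3 (by decide) (by decide) (by decide)).ar
  have a2 := (h 0 3 1 (by decide) (by decide) (by decide)).ar
  have a3 := (h 0 1 2 (by decide) (by decide) (by decide)).ar
  have z : ∀ i j l m : Fin 4, [i, j, l, m].Nodup → (s j - s i) * (t l - t i) - (t j - t i) * (s l - s i) = 0 →
      (s j - s i) * (t m - t i) - (t j - t i) * (s m - s i) = 0 → False := fun i j l m d => by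
    simp at d
    exact two0 two h n d.1.1 d.1.2.1 d.1.2.2 d.2.1.1 d.2.1.2 d.2.2
  rcases a0 with a0 | a0 <;> rcases a1 with a1 | a1 <;> rcases a2 with a2 | a2 <;> rcases a3 with a3 | a3
  any_goals first
    | exact (z 2 3 0 1 (by decide) (by linear_combination a1) (by linear_combination a0)).elim
    | exact (z 3 1 0 2 (by decide) (by linear_combination a2) (by linear_combination a0)).elim
    | exact (z 1 2 0 3 (by decide) (by linear_combination a3) (by linear_combination a0)).elim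
    | exact (z 0 3 2 1 (by decide) (by linear_combination -a1) (by linear_combination a2)).elim
    | exact (z 0 2 3 1 (by decide) (by linear_combination a1) (by linear_combination -a3)).elim
    | exact (z 0 1 3 2 (by decide) (by linear_combination -a2) (by linear_combination a3)).elim
    | skip
  · exact (one0 two h n (m := 0) (by decide) (by decide) (by decide) a0 a1 a2 a3).elim
  · exact (one0 two h n (m := 1) (by decide) (by decide) (by decide) a1 (by linear_combination a0)
      (by linear_combination a2) (by linear_combination a3)).elim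
  · exact (one0 two h n (m := 2) (by decide) (by decide) (by decide) a2 (by linear_combination a0)
      (by linear_combination a3) (by linear_combination a1)).elim
  · exact (one0 two h n (m := 3) (by decide) (by decide) (by decide) a3 (by linear_combination a0)
      (by linear_combination a1) (by linear_combination a2)).elim
  have v : ∀ f : Fin 4 → k, f = s ∨ f = t →
      ((s 2 - s 0) * (t 3 - t 0) - (t 2 - t 0) * (s 3 - s 0)) * (f 1 - f 0) +
      ((s 3 - s 0) * (t 1 - t 0) - (t 3 - t 0) * (s 1 - s 0)) * (f 2 - f 0) +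
      ((s 1 - s 0) * (t 2 - t 0) - (t 1 - t 0) * (s 2 - s 0)) * (f 3 - f 0) = 0 := by
    rintro f (rfl | rfl) <;> ring
  have w1 := v s (Or.inl rfl)
  have w2 := v t (Or.inr rfl)
  have b0 : (((s 2 - s 0) * (t 3 - t 0) - (t 2 - t 0) * (s 3 - s 0)) +
      ((s 3 - s 0) * (t 1 - t 0) - (t 3 - t 0) * (s 1 - s 0)) +
      ((s 1 - s 0) * (t 2 - t 0) - (t 1 - t 0) * (s 2 - s 0))) ^ 2 = 1 := by linear_combination a0
  have p1 := para4 two h n (i := 0) (j := 2) (l := 3) (m := 1) (by decide) (by decide) (by decide)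
    (by decide) (by decide) (by decide) a1
  have p2 := para4 two h n (i := 0) (j := 3) (l := 1) (m := 2) (by decide) (by decide) (by decide)
    (by decide) (by decide) (by decide) a2
  have p3 := para4 two h n (i := 0) (j := 1) (l := 2) (m := 3) (by decide) (by decide) (by decide)
    (by decide) (by decide) (by decide) a3
  generalize (s 2 - s 0) * (t 3 - t 0) - (t 2 - t 0) * (s 3 - s 0) = x at *
  generalize (s 3 - s 0) * (t 1 - t 0) - (t 3 - t 0) * (s 1 - s 0) = y at *
  generalize (s 1 - s 0) * (t 2 - t 0) - (t 1 - t 0) * (s 2 - s 0) = z at *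
  rcases sq_eq_sq_iff_eq_or_eq_neg.1 (a2.trans a1.symm) with rfl | rfl <;>
    rcases sq_eq_sq_iff_eq_or_eq_neg.1 (a3.trans a1.symm) with rfl | rfl
  · exact absurd (show (2 : k) ^ 3 = 0 by linear_combination b0 - 9 * a1) (pow_ne_zero _ two)
  · exact p3 (by linear_combination -y * w1 + (s 1 + s 2 - s 0 - s 3) * a1)
      (by linear_combination -y * w2 + (t 1 + t 2 - t 0 - t 3) * a1)
  · exact p2 (by linear_combination -z * w1 + (s 1 + s 3 - s 0 - s 2) * a1)
      (by linear_combination -z * w2 + (t 1 + t 3 - t 0 - t 2) * a1)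
  · exact p1 (by linear_combination x * w1 + (s 2 + s 3 - s 0 - s 1) * a1)
      (by linear_combination x * w2 + (t 2 + t 3 - t 0 - t 1) * a1)

end

theorem pol (a b c d : W) : B Q (a - b) (c - d) = Q (a - d) + Q (b - c) - Q (a - c) - Q (b - d) := by
  simp only [Q_sub, map_sub, LinearMap.sub_apply]; ring

theorem Ph.conj (h : Sp Q ι ρ j pr) (hs : St P π) (hx : x ∈ P) (h1 : Ph Q ι ρ P o v)
    (h2 : Ph Q ι ρ P o (wa ι (ρ x) v)) (hu : Ph Q ι ρ P o u) : Ph Q ι ρ P o (wa ι (ρ x) u) :=
  let ⟨g, hg, e⟩ := h1.pair h hu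
  h2.ext h (by rw [h.Q_wa (hs.det x hx), hu.un]) (P.mul_mem (P.mul_mem hx hg) (P.inv_mem hx)) (by
    simp only [map_mul, map_inv, h.ι_wa (hs.det x hx), nc k S, e])

namespace Z

variable [IsAlgClosed k] [Fact p.Prime] [CharP k p] (h : Z p P π Q ι ρ j pr)
include h

theorem good {q : Fin 4 → W} (hq : ∀ i j, i ≠ j → Ph Q ι ρ P o (q i - q j)) (hx : X3 P x) :
    ∃ v, Ph Q ι ρ P o v ∧ Ph Q ι ρ P o (wa ι (ρ x) v) := by
  have cl := h.sp
  obtain ⟨c, d, p2⟩ := h.exists_pr hx
  by_contra n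
  have fix : ∀ v, Ph Q ι ρ P o v → B Q v c = 0 → B Q v d = 0 → False := fun v hv e1 e2 =>
    n ⟨v, hv, by simpa [p2.act, B_comm Q c, B_comm Q d, e1, e2] using hv⟩
  have ex : ∀ i j l : Fin 4, ∃ m, m ≠ i ∧ m ≠ j ∧ m ≠ l := by decide
  obtain ⟨i, j, l, m, ij, il, im, jl, jm, lm, ⟨y, y0, ⟨α, β, e⟩, hy⟩, e1, e2⟩ := four_pts
    (s := fun i => B Q (q i) c) (t := fun i => B Q (q i) d)
    (M := fun i j l => ∃ y, y ≠ 0 ∧ In k (q j - q i) (q i - q l) y ∧ In k c d y) h.two
    (fun i j l ij il jl => by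
      obtain ⟨g, hg, p1⟩ := (hq j i ij.symm).pres cl h.toSt (hq i l il)
        (by rw [pol]; simp [(hq _ _ ij.symm).un, (hq _ _ il).un, (hq _ _ jl).un]) fun e => by
          obtain ⟨m, mi, mj, ml⟩ := ex i j l
          have := congrArg (B Q (q m - q i)) e
          rw [pol, pol] at this
          simp [(hq _ _ ij).un, (hq _ _ il).un, (hq _ _ mi).un, (hq _ _ mj).un, (hq _ _ ml).un] at this
          exact h.two (by linear_combination this)
      rcases h.pair hg hx.1 p1 p2 with (rfl | rfl) | e | ⟨e, -, f⟩ | ⟨e, f, -⟩ | ⟨e, f, f'⟩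
      · exact (n ⟨_, hq _ _ ij.symm, p1.act_a ▸ hq _ _ il⟩).elim
      · exact (n ⟨_, hq _ _ il, p1.inv.act_a ▸ hq _ _ ij.symm⟩).elim
      · exact (fix _ (hq _ _ ij.symm) e.1 e.2.1).elim
      all_goals simp only [om, Sg, DZ, nr, map_sub, LinearMap.sub_apply, Ty] at *
      · exact Or.inl ⟨by linear_combination e, Or.inl f⟩
      · exact Or.inr ⟨by linear_combination -e, by linear_combination f⟩
      · refine Or.inl ⟨by linear_combination e, Or.inr ⟨by linear_combination f, f'.imp_right ?_⟩⟩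
        generalize B Q (q j) c = a1, B Q (q j) d = b1, B Q (q l) c = a2, B Q (q l) d = b2
        rintro (⟨f1, f2⟩ | ⟨f1, f2⟩)
        · obtain rfl : b2 = B Q (q i) d + B Q (q i) c - a1 := by linear_combination f1
          obtain rfl : a2 = a1 + b1 - B Q (q i) d := by linear_combination -f2
          constructor <;> ring
        · obtain rfl : b1 = B Q (q i) d + B Q (q i) c - a2 := by linear_combination -f1
          obtain rfl : a1 = a2 + b2 - B Q (q i) d := by linear_combination f2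
          constructor <;> ring)
    fun i j ij e => fix _ (hq j i ij.symm) (by simpa using e.1) (by simpa using e.2)
  have w0 : B Q (q i - q j) y + B Q (q m - q l) y = 0 := by
    obtain ⟨γ, δ, rfl⟩ := hy
    simp only [map_add, map_smul, map_sub, LinearMap.sub_apply, smul_eq_mul] at e1 e2 ⊢
    linear_combination γ * e1 + δ * e2
  rw [e] at w0
  simp only [map_add, map_smul, pol, smul_eq_mul, sub_self, map_zero, (hq _ _ ij).un, (hq _ _ ij.symm).un,
    (hq _ _ il).un, (hq _ _ il.symm).un, (hq _ _ jl).un, (hq _ _ jl.symm).un, (hq _ _ im.symm).un,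
    (hq _ _ jm.symm).un, (hq _ _ lm.symm).un] at w0
  obtain rfl : α = β := mul_left_cancel₀ h.two (by linear_combination -w0)
  have α0 : α ≠ 0 := by rintro rfl; simp [e] at y0
  have := hy.smul α⁻¹
  rw [e, ← smul_add, inv_smul_smul₀ α0, sub_add_sub_cancel] at this
  obtain ⟨z, p3⟩ := p2.base this (hq _ _ jl).un
  exact n ⟨_, hq _ _ jl, p3.act_a ▸ (hq _ _ jl).ext cl p3.qb hx.1 p3.e⟩

theorem rt (hg : X3 P g) : ∃ Φ, Rt P π Q ι ρ j pr Φ := by
  have cl := h.sp
  have hs := h.toSt
  obtain ⟨o, a, b, c, ha, hb, hc, ab, bc, ac⟩ := h.a3 hg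
  have hab := ha.add cl hs hb ab
  have hbc := hb.add cl hs hc bc
  have habc := hab.add cl hs hc (by simp [ac, bc])
  have hq : ∀ i j, i ≠ j → Ph Q ι ρ P o (![a + b + c, b + c, c, 0] i - ![a + b + c, b + c, c, 0] j) := by
    have : ∀ i j, i < j → Ph Q ι ρ P o (![a + b + c, b + c, c, 0] i - ![a + b + c, b + c, c, 0] j) := by
      intro i j e
      fin_cases i <;> fin_cases j <;> simp at e ⊢ <;> assumption
    intro i j e
    rcases lt_or_gt_of_ne e with e | e
    · exact this i j e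
    · rw [← neg_sub]; exact (this j i e).neg cl hs
  have inv : ∀ g ∈ P, ∀ u, Ph Q ι ρ P o u → Ph Q ι ρ P o (wa ι (ρ g) u) :=
    h.ind (X := {x | X3 P x}) (fun x hx => hx.1) (fun g hg x hx => X3.conj hx hg) hg (hg.nsc hs) _
      (fun g hg e u hu => by
        obtain ⟨ε, e1, e⟩ := cl.wa_sc hs hg e
        rw [e]
        rcases mul_self_eq_one_iff.1 e1 with rfl | rfl
        · rwa [one_smul]
        · rw [neg_one_smul]; exact hu.neg cl hs)
      (fun a ha b hb h1 h2 u hu => by rw [cl.wa_mul (h.det a ha) (h.det b hb)]; exact h1 _ (h2 u hu))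
      fun x hx u hu => let ⟨v, h1, h2⟩ := h.good hq hx; h1.conj cl hs hx.1 h2 hu
  refine ⟨Ph Q ι ρ P o, hs, cl, ⟨h.two, cl.nd, cl.dim, fun u hu => by rw [B_self, hu.un, mul_one], ?_,
    fun u hu => hu.neg cl hs, fun u v hu hv => hu.refl cl hv, fun u v hu hv n1 n2 => ?_,
    fun a b c ha hb hc ab ac bc n1 n2 n3 => ?_, fun U hU => ?_, a, ha⟩, fun u v hu hv => hu.pair cl hv, inv⟩
  · have := h.fin
    exact Set.Finite.of_injOn (f := fun u => ι o * ι u) (t := Set.range fun g : P => (ρ g).1)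
      (fun u ⟨_, _, g, hg, e⟩ => ⟨⟨g, hg⟩, e⟩) (fun u hu v hv e => cl.inj' (cl.ι_cancel hu.1 e))
      (Set.finite_range _)
  · have key : ∀ v, Ph Q ι ρ P o v → v ≠ u → NoSh P → B Q u v ≠ 2 := fun v hv n ns e => by
      obtain ⟨g, hg, e'⟩ := hu.pair cl hv
      rw [ns g hg (cl.T_iff.1 (e ▸ cl.T_pair e' hu.un hv.un))] at e'
      exact n (cl.inj' (cl.ι_cancel hu.un (by rw [← e', cl.sq, hu.un]; simp)))
    obtain ⟨g, hg, e⟩ := hu.pair cl hv
    rcases h.qd g hg _ (cl.T_iff.1 (cl.T_pair e hu.un hv.un)) with f | f | f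
    · exact Or.inl f
    · exact Or.inr (sq_one f)
    rcases h.un with ⟨-, ns⟩ | ⟨p3, -⟩
    · rcases sq_eq_sq_iff_eq_or_eq_neg.1 (f.trans (show (4 : k) = 2 ^ 2 by norm_num)) with f | f
      · exact (key v hv n1 ns f).elim
      · exact (key _ (hv.neg cl hs) (fun e => n2 (by simp [← e])) ns (by simp [f])).elim
    · exact Or.inr (sq_one (by linear_combination f + three_eq (k := k) p3))
  · obtain ⟨g, hg, p1⟩ := ha.pres cl hs hb ab n1
    obtain ⟨x, hx, p2⟩ := hb.pres cl hs hc bc n3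
    have e8 : om Q a b b c ^ 2 ≠ 1 := fun e => pow_ne_zero 3 h.two (by
      simp only [om, ab, ac, bc, B_self, hb.un] at e; linear_combination e)
    rcases h.pair hg hx p1 p2 with (rfl | rfl) | e | ⟨e, -⟩ | ⟨e, f, -⟩ | ⟨e, -⟩
    · rw [← p2.act_a, p1.act_b]; abel
    · exact (n2 (p1.inv.act_a.symm.trans p2.act_a)).elim
    · simp [ab] at e
    · exact (e8 e).elim
    · simp only [om, Sg, nr, ab, ac, bc, B_self, hb.un] at e f
      exact (h.two (by linear_combination 3 * e - f)).elim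
    · exact (e8 e).elim
  · obtain ⟨g, hg, p1⟩ := ha.pres cl hs hb ab fun e => by simp [e, bc] at ac
    refine cl.irrWX hs (X := {g | g ∈ P ∧ ∃ u v, Ph Q ι ρ P o u ∧ Ph Q ι ρ P o v ∧ (ρ g).1 = ι u * ι v})
      (fun x hx => hx.1) ?_ ⟨hg, a, b, ha, hb, p1.e⟩ ((p1.x3 hg).nsc hs) U ?_
    · rintro g hg x ⟨hx, u, v, hu, hv, e⟩
      exact ⟨P.mul_mem (P.mul_mem hg hx) (P.inv_mem hg), _, _, inv g hg u hu, inv g hg v hv, by
        simp only [map_mul, map_inv, cl.ι_wa (h.det g hg), nc k S, e]⟩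
    · rintro x ⟨hx, u, v, hu, hv, e⟩ w hw
      convert hU u hu _ (hU v hv w hw) using 1
      rw [cl.wa_pair (h.det x hx) e hu.un hv.un]
      simp only [map_sub, map_smul, smul_eq_mul]
      module

end Z

end Cfsg.Agent.H9.E4
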