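import Cfsg.Agent.H2.L4T
import Cfsg.Agent.H5.E4U
import Cfsg.Agent.H8.L4.Hm3a

/-! Root systems of type `E₆`: the group `U₄(2)`. -/

set_option autoImplicit false
set_option linter.unusedSimpArgs false
set_option linter.unusedSectionVars false
set_option linter.unusedVariables false

namespace Cfsg.Agent.H9.E4

open Module Matrix Cfsg.Agent.Orth Cfsg.Agent.H6.L4 Cfsg.Agent.H5.E4U
open Cfsg.Agent.H6.S4 (nc T wa finSub sq_of_T sqm_of_T inv_of_T)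
open Cfsg.Agent.H2.LT (q1)

universe u

variable {k V W S : Type*} [Field k] [AddCommGroup V] [Module k V] [FiniteDimensional k V]
  [AddCommGroup W] [Module k W] [FiniteDimensional k W]
  [AddCommGroup S] [Module k S] [FiniteDimensional k S]
  {Q : QuadraticForm k W} {ι : W →ₗ[k] End k S} {ρ : (End k V)ˣ →* (End k S)ˣ}
  {j : End k V →ₗ[k] End k S} {pr : End k S →ₗ[k] End k V}
  {G : Type u} [Group G] {P : Subgroup (End k V)ˣ} {π : P →* G} {Φ : W → Prop} {p : ℕ}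

theorem nm_eq (n l : Fin 6 → ℤ) : n ⬝ᵥ C6 *ᵥ l = 2 * (n 0 * l 0 + n 1 * l 1 + n 2 * l 2 + n 3 * l 3 +
    n 4 * l 4 + n 5 * l 5) - (n 0 * l 1 + n 1 * l 0 + n 1 * l 2 + n 2 * l 1 + n 2 * l 3 + n 3 * l 2 +
    n 3 * l 4 + n 4 * l 3 + n 2 * l 5 + n 5 * l 2) := by
  simp [C6, mulVec, dotProduct, Fin.sum_univ_succ]; ring

theorem nm_sq (n : Fin 6 → ℤ) : 6 * (n ⬝ᵥ C6 *ᵥ n) = 3 * (2 * n 0 - n 1) ^ 2 + (3 * n 1 - 2 * n 2) ^ 2 +
    3 * (2 * n 4 - n 3) ^ 2 + (3 * n 3 - 2 * n 2) ^ 2 + 3 * (2 * n 5 - n 2) ^ 2 + n 2 ^ 2 := by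
  rw [nm_eq]; ring

theorem nm_zero {n : Fin 6 → ℤ} (h : n ⬝ᵥ C6 *ᵥ n ≤ 0) : n = 0 := by
  have e := nm_sq n
  have a0 := sq_nonneg (2 * n 0 - n 1)
  have a1 := sq_nonneg (3 * n 1 - 2 * n 2)
  have a2 := sq_nonneg (2 * n 4 - n 3)
  have a3 := sq_nonneg (3 * n 3 - 2 * n 2)
  have a4 := sq_nonneg (2 * n 5 - n 2)
  have a5 := sq_nonneg (n 2)
  have b0 := pow_eq_zero_iff two_ne_zero |>.1 (show (2 * n 0 - n 1) ^ 2 = 0 by omega)
  have b1 := pow_eq_zero_iff two_ne_zero |>.1 (show (3 * n 1 - 2 * n 2) ^ 2 = 0 by omega)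
  have b2 := pow_eq_zero_iff two_ne_zero |>.1 (show (2 * n 4 - n 3) ^ 2 = 0 by omega)
  have b3 := pow_eq_zero_iff two_ne_zero |>.1 (show (3 * n 3 - 2 * n 2) ^ 2 = 0 by omega)
  have b4 := pow_eq_zero_iff two_ne_zero |>.1 (show (2 * n 5 - n 2) ^ 2 = 0 by omega)
  have b5 := pow_eq_zero_iff two_ne_zero |>.1 (show n 2 ^ 2 = 0 by omega)
  ext i; fin_cases i <;> simp <;> omega

theorem nm_two {n l : Fin 6 → ℤ} (hn : n ⬝ᵥ C6 *ᵥ n = 2) (hl : l ⬝ᵥ C6 *ᵥ l = 2)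
    (h : 2 ≤ l ⬝ᵥ C6 *ᵥ n) : n = l := sub_eq_zero.1 (nm_zero (by
  rw [nm_eq] at *; simp only [Pi.sub_apply]; linarith))

theorem nm_rf {n : Fin 6 → ℤ} (hn : n ⬝ᵥ C6 *ᵥ n = 2) (l : Fin 6 → ℤ) :
    rf n l ⬝ᵥ C6 *ᵥ rf n l = l ⬝ᵥ C6 *ᵥ l := by
  have : l ⬝ᵥ C6 *ᵥ n = n ⬝ᵥ C6 *ᵥ l := by simp only [nm_eq]; ring
  simp only [rf, mulVec_sub, mulVec_smul, sub_dotProduct, dotProduct_sub, smul_dotProduct,
    dotProduct_smul, hn, this, smul_eq_mul]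
  ring

theorem nm_e (i : Fin 6) : (Pi.single i 1 : Fin 6 → ℤ) ⬝ᵥ C6 *ᵥ Pi.single i 1 = 2 := by
  revert i; decide

theorem all_roots (R : (Fin 6 → ℤ) → Prop) (h1 : ∀ i, R (Pi.single i 1)) (hn : ∀ n, R n → R (-n))
    (hr : ∀ i n, R n → R (rf (Pi.single i 1) n)) (n : Fin 6 → ℤ) (h : n ⬝ᵥ C6 *ᵥ n = 2) : R n := by
  induction hN : ∑ i, (n i).natAbs using Nat.strong_induction_on generalizing n with | _ N ih => ?_
  obtain ⟨i, hi⟩ : ∃ i, 0 < n i * (C6 *ᵥ n) i := by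
    by_contra! hh
    have : n ⬝ᵥ C6 *ᵥ n ≤ 0 := Finset.sum_nonpos fun i _ => hh i
    omega
  have e : (Pi.single i 1 : Fin 6 → ℤ) ⬝ᵥ C6 *ᵥ n = (C6 *ᵥ n) i := by simp
  by_cases c1 : 2 ≤ (C6 *ᵥ n) i
  · exact nm_two h (nm_e i) (e ▸ c1) ▸ h1 i
  by_cases c2 : 2 ≤ -(C6 *ᵥ n) i
  · exact nm_two h (l := -Pi.single i 1) (by simpa [mulVec_neg] using nm_e i)
      (by rwa [neg_dotProduct, e]) ▸ hn _ (h1 i)
  have := hr i _ (ih _ ?_ (rf (Pi.single i 1) n) (by rw [nm_rf (nm_e i), h]) rfl)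
  · convert this using 1
    simp only [rf, mulVec_sub, mulVec_smul, dotProduct_sub, dotProduct_smul, nm_e, smul_eq_mul]
    module
  rw [← hN]
  refine Finset.sum_lt_sum (fun l _ => ?_) ⟨i, Finset.mem_univ _, ?_⟩
  · by_cases li : l = i
    · subst li
      simp only [rf, e, Pi.sub_apply, Pi.smul_apply, Pi.single_eq_same, smul_eq_mul, mul_one]
      rcases (by omega : (C6 *ᵥ n) l = 1 ∨ (C6 *ᵥ n) l = 0 ∨ (C6 *ᵥ n) l = -1) with c | c | c <;>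
        rw [c] at hi ⊢ <;> omega
    · simp [rf, li]
  · simp only [rf, e, Pi.sub_apply, Pi.smul_apply, Pi.single_eq_same, smul_eq_mul, mul_one]
    rcases (by omega : (C6 *ᵥ n) i = 1 ∨ (C6 *ᵥ n) i = 0 ∨ (C6 *ᵥ n) i = -1) with c | c | c <;>
      rw [c] at hi ⊢ <;> omega

/-- integral combinations -/
def lin (k : Type*) [Field k] [Module k W] (a : Fin 6 → W) (n : Fin 6 → ℤ) : W := ∑ i, (n i : k) • a i

theorem lin_e (a : Fin 6 → W) (i : Fin 6) : lin k a (Pi.single i 1) = a i := by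
  simp [lin, Pi.single_apply, ite_smul]

theorem lin_neg (a : Fin 6 → W) (n : Fin 6 → ℤ) : lin k a (-n) = -lin k a n := by simp [lin]

theorem lin_B {a : Fin 6 → W} (h : ∀ i j, B Q (a i) (a j) = (C6 i j : k)) (n l : Fin 6 → ℤ) :
    B Q (lin k a n) (lin k a l) = (n ⬝ᵥ C6 *ᵥ l : ℤ) := by
  simp only [lin, map_sum, map_smul, LinearMap.sum_apply, LinearMap.smul_apply, h, smul_eq_mul,
    dotProduct, mulVec, Finset.mul_sum]
  push_cast
  rw [Finset.sum_comm]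
  exact Finset.sum_congr rfl fun i _ => Finset.sum_congr rfl fun j _ => by ring

theorem lin_rf {a : Fin 6 → W} (h : ∀ i j, B Q (a i) (a j) = (C6 i j : k)) (n l : Fin 6 → ℤ) :
    lin k a (rf n l) = lin k a l - B Q (lin k a n) (lin k a l) • lin k a n := by
  rw [lin_B h]
  simp [lin, rf, sub_smul, Finset.smul_sum, smul_smul]

theorem el3 (hs : St P π) (t3 : (3 : k) ≠ 0) {x y z : (End k V)ˣ} (hx : T x = (-1 : k) • 1)
    (hy : T y = (-1 : k) • 1) (hz : T z = (-1 : k) • 1) (xy : y.1 * x.1 = x.1 * y.1)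
    (xz : z.1 * x.1 = x.1 * z.1) (yz : z.1 * y.1 = y.1 * z.1) (tx : LinearMap.trace k V x.1 = -2)
    (ty : LinearMap.trace k V y.1 = -2) (tz : LinearMap.trace k V z.1 = -2) {c : k}
    (e : ((2 : k) • x.1 + 1) * (((2 : k) • y.1 + 1) * ((2 : k) • z.1 + 1)) = c • 1) :
    ts (x * y * z) = -1 ∧ tp (x * y * z) = 7 ∧ (x * y * z) ^ 3 = 1 := by
  have m : ∀ {x y : End k V}, y * x = x * y → ∀ Y, y * (x * Y) = x * (y * Y) := fun e Y => by
    rw [← mul_assoc, e, mul_assoc]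
  have four : (4 : k) ≠ 0 := by
    rw [show (4 : k) = 2 * 2 by norm_num]; exact mul_ne_zero hs.two hs.two
  have e1 := congrArg (fun Y => LinearMap.trace k V (((2 : k) • x.1 + 1) * Y)) e
  have e2 := congrArg (fun Y => LinearMap.trace k V (((2 : k) • y.1 + 1) * Y)) e
  have e3 := congrArg (fun Y => LinearMap.trace k V (((2 : k) • z.1 + 1) * Y)) e
  have e4 := congrArg (LinearMap.trace k V) e
  have e5 : (c * c) • (1 : End k V) = (-27 : k) • 1 := by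
    rw [← mul_one (1 : End k V), ← smul_mul_smul_comm, ← e]
    simp only [nc k V, xy, xz, yz, m xy, m xz, m yz, sq_of_T hx, sq_of_T hy, sq_of_T hz, sqm_of_T hx,
      sqm_of_T hy, sqm_of_T hz]
    module
  have e6 := hs.sc' e5
  simp only [ts, tp, pow_succ, pow_zero, Units.ext_iff, inv_of_T hx, inv_of_T hy, inv_of_T hz, nc k V, xy, xz, yz,
    m xy, m xz, m yz,
    sq_of_T hx, sq_of_T hy, sq_of_T hz, sqm_of_T hx, sqm_of_T hy, sqm_of_T hz, map_add, map_sub, map_smul,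
    map_neg, tx, ty, tz, LinearMap.trace_one, hs.dim, smul_eq_mul] at e1 e2 e3 e4 ⊢
  push_cast at e1 e2 e3 e4 ⊢
  have f1 : LinearMap.trace k V (y.1 * z.1) = 1 := mul_left_cancel₀ (mul_ne_zero t3 four) (by
    linear_combination -e1)
  have f2 : LinearMap.trace k V (x.1 * z.1) = 1 := mul_left_cancel₀ (mul_ne_zero t3 four) (by
    linear_combination -e2)
  have f3 : LinearMap.trace k V (x.1 * y.1) = 1 := mul_left_cancel₀ (mul_ne_zero t3 four) (by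
    linear_combination -e3)
  rw [f1, f2, f3] at e4 ⊢
  generalize LinearMap.trace k V (x.1 * (y.1 * z.1)) = t at e4 ⊢
  obtain rfl : c = 2 * t + 1 := mul_left_cancel₀ four (by linear_combination -e4)
  exact ⟨by ring, mul_left_cancel₀ four (by linear_combination -e6), by module⟩

theorem Sp.kk (h : Sp Q ι ρ j pr) {u v x : W} (e1 : B Q x u = 0) (e2 : B Q x v = 0) (X : End k S) :
    ι x * (((2 : k) • (ι u * ι v) + 1) * X) = ((2 : k) • (ι u * ι v) + 1) * (ι x * X) := by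
  simp only [nc k S, h.antim x u, h.antim x v, e1, e2]; module

theorem Sp.k1 (h : Sp Q ι ρ j pr) {u v : W} (qu : Q u = 1) (e : B Q u v = -1) (X : End k S) :
    ι u * (((2 : k) • (ι u * ι v) + 1) * X) = -(((2 : k) • (ι u * ι v) + 1) * (ι u * X)) := by
  simp only [nc k S, h.antim v u, h.sqm, qu, B_comm Q v u, e]; module

theorem Sp.k2 (h : Sp Q ι ρ j pr) {u v : W} (qv : Q v = 1) (e : B Q u v = -1) (X : End k S) :
    ι v * (((2 : k) • (ι u * ι v) + 1) * X) = -(((2 : k) • (ι u * ι v) + 1) * (ι v * X)) := by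
  simp only [nc k S, h.antim v u, h.sqm, qv, B_comm Q v u, e]; module

variable [IsAlgClosed k] [Fact p.Prime] [CharP k p]

theorem Rt.el (h : Rt P π Q ι ρ j pr Φ) (t3 : (3 : k) ≠ 0) {a : Fin 6 → W}
    (ha : ∀ i j, B Q (a i) (a j) = (C6 i j : k)) (hr : ∀ n, n ⬝ᵥ C6 *ᵥ n = 2 → Φ (lin k a n))
    (hΦ : ∀ x, Φ x → ∃ n, x = lin k a n) : ∃ g ∈ ⁅P, P⁆, ts g = -1 ∧ tp g = 7 := by
  have cl := h.sp
  have r : ∀ i, Φ (a i) := fun i => lin_e (k := k) a i ▸ hr _ (nm_e i)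
  have q : ∀ i, Q (a i) = 1 := fun i => q1 h.rs (r i)
  have rb := hr (-![1, 2, 3, 2, 1, 2]) (by decide)
  have qb := q1 h.rs rb
  have hb : ∀ i, B Q (a i) (lin k a (-![1, 2, 3, 2, 1, 2])) = if i = 5 then -1 else 0 := fun i => by
    rw [← lin_e (k := k) a i, lin_B ha]
    have : ∀ i : Fin 6, (Pi.single i 1 : Fin 6 → ℤ) ⬝ᵥ C6 *ᵥ (-![1, 2, 3, 2, 1, 2]) =
      if i = 5 then -1 else 0 := by decide
    rw [this]; split_ifs <;> simp
  have eb : (3 : k) • a 2 = -lin k a (-![1, 2, 3, 2, 1, 2]) - a 0 - (2 : k) • a 1 - (2 : k) • a 3 - a 4 -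
      (2 : k) • a 5 := by
    simp [lin, Fin.sum_univ_six]; module
  generalize lin k a (-![1, 2, 3, 2, 1, 2]) = b at rb qb hb eb
  have hb' : ∀ i, B Q b (a i) = if i = 5 then -1 else 0 := fun i => B_comm Q b _ ▸ hb i
  obtain ⟨x, hx, ex⟩ := h.pair _ _ (r 0) (r 1)
  obtain ⟨y, hy, ey⟩ := h.pair _ _ (r 3) (r 4)
  obtain ⟨z, hz, ez⟩ := h.pair _ _ (r 5) rb
  have b1 : B Q (a 0) (a 1) = -1 := by simp [ha, C6]
  have b2 : B Q (a 3) (a 4) = -1 := by simp [ha, C6]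
  have b3 : B Q (a 5) b = -1 := by simp [hb]
  let Γ := ((2 : k) • (ι (a 0) * ι (a 1)) + 1) * (((2 : k) • (ι (a 3) * ι (a 4)) + 1) *
    (((2 : k) • (ι (a 5) * ι b) + 1) * 1))
  have c0 : ι (a 0) * Γ = -(Γ * ι (a 0)) := by
    rw [cl.k1 (q 0) b1, cl.kk, cl.kk] <;> simp [ha, hb, C6, Γ, mul_assoc]
  have c1 : ι (a 1) * Γ = -(Γ * ι (a 1)) := by
    rw [cl.k2 (q 1) b1, cl.kk, cl.kk] <;> simp [ha, hb, C6, Γ, mul_assoc]
  have c3 : ι (a 3) * Γ = -(Γ * ι (a 3)) := by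
    rw [cl.kk, cl.k1 (q 3) b2, cl.kk] <;> simp [ha, hb, C6, Γ, mul_assoc]
  have c4 : ι (a 4) * Γ = -(Γ * ι (a 4)) := by
    rw [cl.kk, cl.k2 (q 4) b2, cl.kk] <;> simp [ha, hb, C6, Γ, mul_assoc]
  have c5 : ι (a 5) * Γ = -(Γ * ι (a 5)) := by
    rw [cl.kk, cl.kk, cl.k1 (q 5) b3] <;> simp [ha, hb, C6, Γ, mul_assoc]
  have cb : ι b * Γ = -(Γ * ι b) := by
    rw [cl.kk, cl.kk, cl.k2 qb b3] <;> simp [ha, hb', C6, Γ, mul_assoc]
  have eΓ : pr Γ = ((2 : k) • x.1 + 1) * (((2 : k) • y.1 + 1) * ((2 : k) • z.1 + 1)) := by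
    simp only [Γ, ← ex, ← ey, ← ez, nc k S, nc k V, map_add, map_smul, cl.prm, cl.prρ, cl.pr1]
    module
  clear_value Γ
  have c2 : ι (a 2) * Γ = -(Γ * ι (a 2)) := smul_right_injective _ t3 (by
    simp only
    rw [← smul_mul_assoc, smul_neg, ← mul_smul_comm, ← map_smul, eb]
    simp only [map_sub, map_neg, map_smul, nc k S, c0, c1, c3, c4, c5, cb]
    module)
  have c : ∀ u, Φ u → ι u * Γ = -(Γ * ι u) := fun u hu => by
    obtain ⟨n, rfl⟩ := hΦ u hu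
    simp only [lin, Fin.sum_univ_six, map_add, map_smul, nc k S, c0, c1, c2, c3, c4, c5]
    module
  obtain ⟨s, hs⟩ := h.schur (X := pr Γ) (H2.LT.ind h _ (fun g _ ⟨c, hc⟩ => by simp [hc])
    (fun a _ b _ h1 h2 => by rw [Units.val_mul, mul_assoc, h2, ← mul_assoc, h1, mul_assoc])
    fun g _ u v hu hv e => by
      rw [← cl.prm, ← cl.prm', e, mul_assoc, c v hv, mul_neg, ← mul_assoc, c u hu]
      simp [mul_assoc])
  have cm : ∀ {x y : (End k V)ˣ} {u v w t : W}, (ρ x).1 = ι u * ι v → (ρ y).1 = ι w * ι t → B Q u w = 0 →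
      B Q u t = 0 → B Q v w = 0 → B Q v t = 0 → y.1 * x.1 = x.1 * y.1 :=
    fun {x y u v w t} e1 e2 f1 f2 f3 f4 => congrArg Units.val (cl.ρ_inj (g := y * x) (g' := x * y) (by
      simp only [map_mul, nc k S, e1, e2, cl.antim u w, cl.antim u t, cl.antim v w, cl.anti' v t,
        f1, f2, f3, f4]
      module))
  have tr : ∀ {x : (End k V)ˣ} {u v : W}, (ρ x).1 = ι u * ι v → B Q u v = -1 →
      LinearMap.trace k V x.1 = -2 := fun e f => by rw [← cl.prρ, e, cl.trV, f]; ring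
  obtain ⟨a1, a2, a3⟩ := el3 h.toSt t3 (cl.T_iff.1 (b1 ▸ cl.T_pair ex (q 0) (q 1)))
    (cl.T_iff.1 (b2 ▸ cl.T_pair ey (q 3) (q 4))) (cl.T_iff.1 (b3 ▸ cl.T_pair ez (q 5) qb))
    (by apply cm ex ey <;> simp [ha, C6]) (by apply cm ex ez <;> simp [ha, hb, C6])
    (by apply cm ey ez <;> simp [ha, hb, C6]) (tr ex b1) (tr ey b2) (tr ez b3) (eΓ ▸ hs)
  refine ⟨_, ?_, a1, a2⟩
  obtain ⟨w, hw, t, ht, ⟨c, hc⟩, e⟩ := h.toSt.core (P.mul_mem (P.mul_mem hx hy) hz)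
  have t4 : t ^ 4 = 1 := Units.ext (by simp [hc, smul_pow, h.four ht hc])
  rw [← one_mul (x * y * z), ← a3, ← pow_succ, e, Commute.mul_pow (Sc.comm ⟨c, hc⟩ w), t4, one_mul]
  exact pow_mem hw 4

theorem Rt.te (h : Rt P π Q ι ρ j pr Φ) (t : TE Q Φ) : CB0 p P G := by
  obtain ⟨t3, a, ra, ha, hΦ⟩ := t
  have cl := h.sp
  have hr := all_roots (fun n => Φ (lin k a n)) (fun i => lin_e (k := k) a i ▸ ra i)
    (fun n hn => lin_neg (k := k) a n ▸ h.rs.neg _ hn) fun i n hn => by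
      simpa [lin_rf ha, lin_e] using h.rs.neg _ (h.rs.refl _ _ (ra i) hn)
  refine ⟨⟨H7.F4, inferInstance, inferInstance, by decide, ?_⟩, fun e => t3 (H6.S4.three_eq e),
    H2.LT.tt h, h.el t3 ha hr fun x hx => (hΦ x hx).imp fun n hn => hn.2⟩
  obtain ⟨Rl, r1, rm, rp, rc, rg, nt⟩ := e6_cert
  have := h.fin
  have := h.sn.simple
  let R : (End k V)ˣ → SU 4 H7.F4 2 → Prop := fun g m => ∃ σ ε, Rl m σ ∧ ε * ε = (1 : k) ∧
    (∀ n, σ n ⬝ᵥ C6 *ᵥ σ n = n ⬝ᵥ C6 *ᵥ n) ∧ ∀ n, wa ι (ρ g) (lin k a n) = ε • lin k a (σ n)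
  have hm : ∀ g ∈ P, ∀ g' ∈ P, ∀ m m', R g m → R g' m' → R (g * g') (m * m') :=
    fun g hg g' hg' m m' ⟨σ, ε, a1, a2, a3, a4⟩ ⟨σ', ε', b1, b2, b3, b4⟩ => ⟨_, ε' * ε, rm _ _ _ _ a1 b1,
      by linear_combination ε * ε * b2 + a2, fun n => (a3 _).trans (b3 n), fun n => by
        rw [cl.wa_mul (h.det g hg) (h.det g' hg'), b4, map_smul, a4, smul_smul]; rfl⟩
  have hp : ∀ g ∈ P, ∀ n n' m, n ⬝ᵥ C6 *ᵥ n = 2 → n' ⬝ᵥ C6 *ᵥ n' = 2 → Rl m (rf n ∘ rf n') →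
      (ρ g).1 = ι (lin k a n) * ι (lin k a n') → R g m := fun g hg n n' m hn hn' r e =>
    ⟨_, 1, r, one_mul _, fun l => (nm_rf hn _).trans (nm_rf hn' l), fun l => by
      rw [cl.wa_pair (h.det g hg) e (q1 h.rs (hr n hn)) (q1 h.rs (hr n' hn')), Function.comp, lin_rf ha,
        lin_rf ha]
      simp only [map_sub, map_smul, smul_eq_mul]
      module⟩
  let D := finSub (⊤ : Subgroup (P × SU 4 H7.F4 2)) (fun x => R x.1.1 x.2)
    ⟨id, 1, r1, one_mul _, fun _ => rfl, fun n => by rw [one_smul]; exact cl.wa_one _⟩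
    fun x _ y _ => hm _ x.1.2 _ y.1.2 _ _
  refine iso_of_rel π h.surj (QuotientGroup.mk' _) (QuotientGroup.mk'_surjective _) D (fun g => ?_)
    (fun m => ?_) ?_
  · refine (H2.LT.ind h (fun g => ∃ m, R g m) (fun g hg e => ?_) (fun g hg g' hg' ⟨m, h1⟩ ⟨m', h2⟩ =>
      ⟨_, hm g hg g' hg' m m' h1 h2⟩) (fun g hg u v hu hv e => ?_) g.1 g.2).imp fun m hm => ⟨trivial, hm⟩
    · obtain ⟨ε, e1, e2⟩ := cl.wa_sc h.toSt hg e
      exact ⟨1, id, ε, r1, e1, fun _ => rfl, fun n => e2 _⟩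
    · obtain ⟨n, hn, rfl⟩ := hΦ u hu
      obtain ⟨n', hn', rfl⟩ := hΦ v hv
      exact (rp n n' hn hn').imp fun m r => hp g hg n n' m hn hn' r e
  · obtain ⟨x, hx, rfl⟩ : m ∈ D.map (MonoidHom.snd _ _) := rg (D.map (MonoidHom.snd _ _)) (fun n n' m hn hn' r =>
      let ⟨g, hg, e⟩ := h.pair _ _ (hr n hn) (hr n' hn')
      ⟨(⟨g, hg⟩, m), ⟨trivial, hp g hg n n' m hn hn' r e⟩, rfl⟩) ▸ Subgroup.mem_top m
    exact ⟨x.1, hx⟩
  rintro g m ⟨-, σ, ε, a1, a2, a3, a4⟩ e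
  obtain ⟨ε', b2, b4⟩ := cl.wa_sc h.toSt g.2 ((h.ker g).1 e)
  have inj : ∀ n l, n ⬝ᵥ C6 *ᵥ n = 2 → l ⬝ᵥ C6 *ᵥ l = 2 → lin k a n = lin k a l → n = l :=
    fun n l hn hl e => by
    have e1 := lin_B ha l n
    rw [e, lin_B ha, hl] at e1
    by_contra ne
    have c1 : ¬ 2 ≤ l ⬝ᵥ C6 *ᵥ n := fun c => ne (nm_two hn hl c)
    have c2 : -2 ≤ l ⬝ᵥ C6 *ᵥ n := by
      have := nm_sq (n + l)
      rw [nm_eq] at *
      simp only [Pi.add_apply] at this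
      nlinarith [sq_nonneg (2 * (n 0 + l 0) - (n 1 + l 1)), sq_nonneg (3 * (n 1 + l 1) - 2 * (n 2 + l 2)),
        sq_nonneg (2 * (n 4 + l 4) - (n 3 + l 3)), sq_nonneg (3 * (n 3 + l 3) - 2 * (n 2 + l 2)),
        sq_nonneg (2 * (n 5 + l 5) - (n 2 + l 2)), sq_nonneg (n 2 + l 2)]
    generalize l ⬝ᵥ C6 *ᵥ n = c at e1 c1 c2
    rcases (by omega : c = -2 ∨ c = -1 ∨ c = 0 ∨ c = 1) with rfl | rfl | rfl | rfl <;> push_cast at e1
    exacts [cl.four_ne (by linear_combination e1), t3 (by linear_combination e1), h.two e1,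
      one_ne_zero (α := k) (by linear_combination e1)]
  refine (QuotientGroup.eq_one_iff m).2 (rc m σ a1 fun i => ?_)
  have e1 : lin k a (σ (Pi.single i 1)) = (ε * ε') • lin k a (Pi.single i 1) := by
    rw [mul_smul, ← b4, a4, smul_smul, a2, one_smul]
  rcases mul_self_eq_one_iff.1 (show ε * ε' * (ε * ε') = 1 by linear_combination ε' * ε' * a2 + b2)
    with f | f <;> rw [f] at e1
  · exact Or.inl (inj _ _ ((a3 _).trans (nm_e i)) (nm_e i) (by simpa using e1))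
  · exact Or.inr (inj _ _ ((a3 _).trans (nm_e i)) (by simpa [mulVec_neg] using nm_e i)
      (by simpa [lin_neg] using e1))

end Cfsg.Agent.H9.E4
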