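import Cfsg.Agent.H9.E4.S1
import Cfsg.Agent.H9.E4.S6
import Cfsg.Agent.H9.E4.S7
import Cfsg.Agent.H2.L4U
import Cfsg.Agent.H2.L4d
import Cfsg.Agent.H3.E4R3
import Cfsg.Agent.H8.L4.Hm3

/-! Subgroups of `SL_4` with a quadratic element of order three, and the case division. -/

set_option autoImplicit false
set_option linter.unusedSimpArgs false
set_option linter.unusedSectionVars false
set_option linter.unusedVariables false

namespace Cfsg.Agent.H9.E4

open Module Cfsg.Agent.H6.L4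
open Cfsg.Agent.H6.S4 (T T_neg three_eq sq_one)

universe u

variable {k V : Type*} [Field k] [AddCommGroup V] [Module k V] [FiniteDimensional k V]
  {G : Type u} [Group G] {P : Subgroup (End k V)ˣ} {π : P →* G} {p : ℕ} {g : (End k V)ˣ}
  [IsAlgClosed k] [Fact p.Prime] [CharP k p]

theorem caseE (h : S2 p P π) (qd : Quad P) (p3 : Pair3 P) (hg : X3 P g) : CA0 p P G ∨ CB0 p P G := by
  obtain ⟨ρ, j, pr, s⟩ := exists_sp (V := V) h.two h.dim
  obtain ⟨Φ, r⟩ := Z.rt ⟨h, s, qd, p3⟩ hg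
  rcases r.rs.cases with t | t | t
  exacts [Or.inl (H2.LT.ta r t), (H2.LT.td r t).elim, Or.inr (r.te t)]

theorem noS (h : S2 p P π) (qd : Quad P) (n : ∀ g, ¬ X3 P g) : NoS P := by
  have k1 : ∀ g ∈ P, T g = (-1 : k) • 1 → Sc g := fun g hg e => by
    rw [show g = 1 from by_contra fun g1 => n g ⟨hg, e, g1⟩]; exact sc_one
  have k2 : ∀ g ∈ P, T g = (2 : k) • 1 → Sc g := fun g hg e => by
    rcases h.un with ⟨-, ns⟩ | ⟨p3, -⟩
    · rw [ns g hg e]; exact sc_one
    · exact k1 g hg (by rw [e]; congr 1; linear_combination three_eq (k := k) p3)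
  intro g hg θ e
  rcases qd g hg θ e with f | f | f
  · exact Or.inr f
  · rcases sq_one f with rfl | rfl
    · exact Or.inl (by simpa using (k1 _ (h.neg hg) (by rw [T_neg, e, neg_smul])).neg)
    · exact Or.inl (k1 g hg e)
  · rcases sq_eq_sq_iff_eq_or_eq_neg.1 (f.trans (show (4 : k) = 2 ^ 2 by norm_num)) with rfl | rfl
    · exact Or.inl (k2 g hg e)
    · exact Or.inl (by simpa using (k2 _ (h.neg hg) (by rw [T_neg, e, neg_smul, neg_neg])).neg)

theorem main0 (h : St P π) (qd : S2 p P π → Quad P) (p3 : S2 p P π → Pair3 P)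
    (f : Beta P π → CC p P G ∨ CD p G) : CA0 p P G ∨ CB0 p P G ∨ CC p P G ∨ CD p G := by
  have s := H2.L4.toS2 (p := p) h
  by_cases x : ∃ g, X3 P g
  · obtain ⟨g, hg⟩ := x
    exact (caseE s (qd s) (p3 s) hg).imp_right Or.inl
  · have ns := noS s (qd s) (not_exists.1 x)
    exact Or.inr (Or.inr (f ⟨h, hm (p := p) h ns, ns⟩))

end Cfsg.Agent.H9.E4
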